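import Cfsg.Agent.Chev.Cover.SplitChk

/-!
# Choosing the criterion by the size of the field
-/

set_option autoImplicit false

namespace CfsgLib.Chev

open Cfsg.Lie

universe u

variable {D : ChevalleyDatum} (S : Sys.{u} D) {F : Type u} [Field F] [Finite F]
include S

omit S in
theorem char_eq_of_card {p q : ℕ} [CharP F p] [hq : Fact q.Prime] (h : Nat.card F = q) : p = q := by
  haveI := Fintype.ofFinite F
  have h0 : ((Nat.card F : ℕ) : F) = 0 := by rw [Nat.card_eq_fintype_card]; exact Nat.cast_card_eq_zero F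
  have h1 : p ∣ q := h ▸ (CharP.cast_eq_zero_iff F p _).1 h0
  exact ((Nat.dvd_prime hq.out).1 h1).resolve_left (CharP.char_ne_one F p)

/-- Fields with three elements. -/
theorem Sys.noPCover_three {ex : List ((ℕ × ℕ) × List ℕ)} (hq : Nat.card F = 3) {p : ℕ}
    [hp : Fact p.Prime] [CharP F p] (hc : canChk D goodOdd = true)
    (hp2 : pairsChk D goodOdd nullEven (ex.map Prod.fst) = true)
    (hm : (ex.all fun x => S.monoChk x.2 x.1.1 x.1.2 && Sys.commChk D 0 x.1.1 x.1.2) = true) :
    NoPCover D F p := by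
  haveI : Fact (Nat.Prime 3) := ⟨Nat.prime_three⟩
  obtain rfl : p = 3 := char_eq_of_card hq
  refine S.noPCover_of_chk (expPred_three F hq) (S.not_dvd_index_pos 3)
    (fun r _ _ => S.rootComm_prime hq r) hc hp2 fun x hx hr hs => ?_
  obtain ⟨y, hy, rfl⟩ := List.mem_map.1 hx
  simp only [List.all_eq_true, Bool.and_eq_true] at hm
  exact S.rootComm_of_mono (by decide) hr hs
    (S.comm_of_chk (d := 0) Nat.cast_zero hr hs (hm y hy).2) hq (hm y hy).1

/-- Fields with at least four elements. -/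
theorem Sys.noPCover_le {n d : ℕ} {scale : Bool} {W : List (ℕ × ℕ × ℕ)} (hn : n + 2 ≤ Nat.card F)
    (hd : (d : F) = 0) (hsc : scale = true → 5 ≤ Nat.card F) {p : ℕ}
    [hp : Fact p.Prime] [CharP F p] (hc : canChk D (goodLe n) = true)
    (hp2 : pairsChk D (goodLe n) nullZero [] = true)
    (hs : sameChk D (goodLe n) nullZero d scale W = true) : NoPCover D F p :=
  S.noPCover_of_chk (expPred_le F hn) (S.not_dvd_index_pos p)
    (fun _ h1 h2 => S.same_of_chk (expPred_le F hn) hd hsc hs h1 h2) hc hp2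
    fun _ hx => absurd hx (List.not_mem_nil)

omit S in
theorem gcd_eq_one_or_prime {m : ℕ} (hm : m.Prime) (k : ℕ) : Nat.gcd m k = 1 ∨ (Nat.gcd m k).Prime := by
  rcases (Nat.dvd_prime hm).1 (Nat.gcd_dvd_left m k) with h | h
  · exact Or.inl h
  · exact Or.inr (h.symm ▸ hm)

end CfsgLib.Chev
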