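import Cfsg.Agent.Chev.Cover.SplitChk
import Cfsg.Agent.Chev.Inst

/-!
# Torus certificates of type B2
-/

set_option autoImplicit false
set_option maxRecDepth 100000
set_option linter.style.longLine false

namespace CfsgLib.Chev.SplitB2

open Cfsg.Lie CfsgLib.Chev

/-- Witnesses over fields of characteristic two. -/
def witTwo : List (ℕ × ℕ × ℕ) := [(0, 6, 1), (1, 7, 0), (2, 7, 0), (3, 6, 1)]

/-- Witnesses. -/
def wit : List (ℕ × ℕ × ℕ) := [(0, 6, 1), (0, 0, 0), (0, 0, 0), (3, 6, 1)]

theorem can_le : canChk chevB2 (goodLe 2) = true := by decide +kernel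

theorem pairs_le : pairsChk chevB2 (goodLe 2) nullZero [] = true := by decide +kernel

theorem same_two : sameChk chevB2 (goodLe 2) nullZero 2 false witTwo = true := by decide +kernel

theorem same_five : sameChk chevB2 (goodLe 2) nullZero 0 true wit = true := by decide +kernel

end CfsgLib.Chev.SplitB2
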