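import Cfsg.Agent.Chev.Cover.SplitChk
import Cfsg.Agent.Chev.Inst

/-!
# Torus certificates of type D4
-/

set_option autoImplicit false
set_option maxRecDepth 100000
set_option linter.style.longLine false

namespace CfsgLib.Chev.SplitD4

open Cfsg.Lie CfsgLib.Chev

/-- Witnesses. -/
def wit : List (ℕ × ℕ × ℕ) := [(2, 22, 0), (3, 22, 0), (1, 23, 0), (2, 23, 0), (3, 23, 0), (4, 23, 0), (6, 22, 0), (6, 23, 0), (7, 23, 0), (8, 23, 0), (9, 23, 0), (14, 22, 0)]

/-- The pairs which the torus over the field with three elements does not separate, with words. -/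
def ex : List ((ℕ × ℕ) × List ℕ) := [((12, 13), [1, 3, 2, 1]), ((12, 18), [1, 3, 0, 1]), ((12, 23), [1, 2, 0, 1]),
  ((13, 18), [1, 2, 0, 1]), ((13, 23), [1, 3, 0, 1]), ((14, 17), [3, 2]), ((14, 20), [3, 0]),
  ((14, 21), [2, 0]), ((15, 16), [3, 2]), ((15, 19), [3, 0]), ((15, 22), [2, 0]),
  ((16, 19), [2, 0]), ((16, 22), [3, 0]), ((17, 20), [2, 0]), ((17, 21), [3, 0]),
  ((18, 23), [1, 3, 2, 1]), ((19, 22), [3, 2]), ((20, 21), [3, 2])]

theorem can_le : canChk chevD4 (goodLe 2) = true := by decide +kernel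

theorem can_three : canChk chevD4 goodOdd = true := by decide +kernel

theorem pairs_le : pairsChk chevD4 (goodLe 2) nullZero [] = true := by decide +kernel

theorem pairs_three : pairsChk chevD4 goodOdd nullEven (ex.map Prod.fst) = true := by decide +kernel

theorem mono_three : (ex.all fun x => sysD4.{0}.monoChk x.2 x.1.1 x.1.2 && Sys.commChk chevD4 0 x.1.1 x.1.2) = true := by
  decide +kernel

theorem same_le : sameChk chevD4 (goodLe 2) nullZero 0 false wit = true := by decide +kernel

end CfsgLib.Chev.SplitD4
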