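import Cfsg.Agent.Chev.Cover.SplitChk
import Cfsg.Agent.Chev.Inst

/-!
# Torus certificates of type E6
-/

set_option autoImplicit false
set_option maxRecDepth 100000
set_option linter.style.longLine false

namespace CfsgLib.Chev.SplitE6

open Cfsg.Lie CfsgLib.Chev

/-- Witnesses. -/
def wit : List (ℕ × ℕ × ℕ) := [(4, 68, 0), (3, 69, 0), (4, 69, 0), (2, 70, 0), (3, 70, 0), (4, 70, 0), (5, 69, 0), (5, 70, 0), (6, 70, 0), (7, 70, 0), (1, 71, 0), (2, 71, 0), (3, 71, 0), (4, 71, 0), (5, 71, 0), (6, 71, 0), (7, 71, 0), (8, 71, 0), (9, 71, 0), (10, 71, 0), (16, 66, 0), (16, 69, 0), (16, 70, 0), (17, 70, 0), (18, 70, 0), (16, 71, 0), (17, 71, 0), (18, 71, 0), (19, 71, 0), (20, 71, 0), (21, 71, 0), (22, 71, 0), (23, 71, 0), (24, 71, 0), (25, 71, 0), (46, 70, 0)]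

theorem can_le : canChk chevE6 (goodLe 2) = true := by decide +kernel

theorem can_three : canChk chevE6 goodOdd = true := by decide +kernel

theorem pairs_le : pairsChk chevE6 (goodLe 2) nullZero [] = true := by decide +kernel

theorem pairs_three : pairsChk chevE6 goodOdd nullEven [] = true := by decide +kernel

theorem same_le : sameChk chevE6 (goodLe 2) nullZero 0 false wit = true := by decide +kernel

end CfsgLib.Chev.SplitE6
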