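import Cfsg.Agent.Chev.Cover.SplitChk
import Cfsg.Agent.Chev.Inst

/-!
# Torus certificates of type E7
-/

set_option autoImplicit false
set_option maxRecDepth 100000
set_option linter.style.longLine false

namespace CfsgLib.Chev.SplitE7

open Cfsg.Lie CfsgLib.Chev

/-- Witnesses. -/
def wit : List (ℕ × ℕ × ℕ) := [(6, (120, 0)), (5, (121, 0)), (6, (121, 0)), (4, (122, 0)), (5, (122, 0)), (6, (122, 0)), (3, (123, 0)), (4, (123, 0)), (5, (123, 0)), (6, (123, 0)), (2, (124, 0)), (3, (124, 0)), (4, (124, 0)), (5, (124, 0)), (6, (124, 0)), (7, (122, 0)), (7, (123, 0)), (8, (123, 0)), (9, (123, 0)), (10, (123, 0)), (7, (124, 0)), (8, (124, 0)), (9, (124, 0)), (10, (124, 0)), (11, (124, 0)), (12, (124, 0)), (13, (124, 0)), (14, (124, 0)), (15, (124, 0)), (16, (124, 0)), (1, (125, 0)), (2, (125, 0)), (3, (125, 0)), (4, (125, 0)), (5, (125, 0)), (6, (125, 0)), (7, (125, 0)), (8, (125, 0)), (9, (125, 0)), (10, (125, 0)), (11, (125, 0)), (12, (125, 0)), (13, (125, 0)), (14, (125, 0)), (15, (125, 0)), (16, (125, 0)),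 (17, (125, 0)), (18, (125, 0)), (19, (125, 0)), (20, (125, 0)), (21, (125, 0)), (22, (125, 0)), (23, (125, 0)), (24, (125, 0)), (25, (125, 0)), (26, (125, 0)), (27, (125, 0)), (28, (125, 0)), (29, (125, 0)), (30, (125, 0)), (31, (125, 0)), (32, (125, 0)), (93, (124, 0))]

theorem can_le : canChk chevE7 (goodLe 2) = true := by decide +kernel

theorem can_three : canChk chevE7 goodOdd = true := by decide +kernel

theorem pairs_le : pairsChk chevE7 (goodLe 2) nullZero [] = true := by decide +kernel

theorem pairs_three : pairsChk chevE7 goodOdd nullEven [] = true := by decide +kernel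

theorem same_le : sameChk chevE7 (goodLe 2) nullZero 0 false wit = true := by decide +kernel

end CfsgLib.Chev.SplitE7
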