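import Cfsg.Agent.Chev.Cover.SplitChk
import Cfsg.Agent.Chev.Inst

/-!
# Torus certificates of type E8
-/

set_option autoImplicit false
set_option maxRecDepth 100000
set_option linter.style.longLine false

namespace CfsgLib.Chev.SplitE8

open Cfsg.Lie CfsgLib.Chev

/-- Witnesses. -/
def wit : List (ℕ × ℕ × ℕ) := [(1, (239, 0)), (2, (238, 0)), (2, (239, 0)), (3, (237, 0)), (3, (238, 0)), (3, (239, 0)), (4, (236, 0)), (4, (237, 0)), (4, (238, 0)), (4, (239, 0)), (5, (235, 0)), (5, (236, 0)), (5, (237, 0)), (5, (238, 0)), (5, (239, 0)), (6, (234, 0)), (6, (235, 0)), (6, (236, 0)), (6, (237, 0)), (6, (238, 0)), (6, (239, 0)), (7, (234, 0)), (7, (235, 0)), (7, (236, 0)), (7, (237, 0)), (7, (238, 0)), (7, (239, 0)), (8, (235, 0)), (8, (236, 0)), (8, (237, 0)), (8, (238, 0)), (8, (239, 0)), (9, (236, 0)), (9, (237, 0)), (9, (238, 0)), (9, (239, 0)), (10, (237, 0)), (10, (238, 0)), (10, (239, 0)), (11, (238, 0)), (11, (239, 0)), (12, (239, 0)), (14, (233, 0)), (14, (234, 0)), (14, (235, 0)),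 (14, (236, 0)), (14, (237, 0)), (14, (238, 0)), (14, (239, 0)), (15, (235, 0)), (15, (236, 0)), (15, (237, 0)), (15, (238, 0)), (15, (239, 0)), (16, (236, 0)), (16, (237, 0)), (16, (238, 0)), (16, (239, 0)), (17, (237, 0)), (17, (238, 0)), (17, (239, 0)), (18, (238, 0)), (18, (239, 0)), (19, (239, 0)), (21, (236, 0)), (21, (237, 0)), (21, (238, 0)), (21, (239, 0)), (22, (237, 0)), (22, (238, 0)), (22, (239, 0)), (23, (238, 0)), (23, (239, 0)), (24, (239, 0)), (26, (237, 0)), (26, (238, 0)), (26, (239, 0)), (27, (238, 0)), (27, (239, 0)), (28, (239, 0)), (30, (238, 0)), (30, (239, 0)), (31, (239, 0)), (33, (239, 0)), (36, (237, 0)), (36, (238, 0)), (36, (239, 0)), (37, (238, 0)), (37, (239, 0)), (38, (239, 0)), (40, (238, 0)), (40, (239, 0)), (41, (239, 0)), (43, (239, 0)), (46, (238, 0)), (46, (239, 0)), (47, (239, 0)), (49, (239, 0)), (52, (239, 0)), (56, (238, 0)), (56, (239, 0)), (57, (239, 0)), (59, (239, 0)), (62, (239, 0)), (66, (239, 0)), (71, (239, 0)), (78, (238, 0)), (78,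 (239, 0)), (79, (239, 0)), (81, (239, 0)), (84, (239, 0)), (88, (239, 0)), (93, (239, 0)), (99, (239, 0)), (105, (239, 0)), (110, (239, 0)), (114, (239, 0)), (117, (239, 0)), (119, (239, 0)), (120, (238, 0))]

theorem can_le : canChk chevE8 (goodLe 2) = true := by decide +kernel

theorem can_three : canChk chevE8 goodOdd = true := by decide +kernel

theorem pairs_le : pairsChk chevE8 (goodLe 2) nullZero [] = true := by decide +kernel

theorem pairs_three : pairsChk chevE8 goodOdd nullEven [] = true := by decide +kernel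

theorem same_le : sameChk chevE8 (goodLe 2) nullZero 0 false wit = true := by decide +kernel

end CfsgLib.Chev.SplitE8
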