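import Cfsg.Agent.Chev.Cover.SplitChk
import Cfsg.Agent.Chev.Inst

/-!
# Torus certificates of type F4
-/

set_option autoImplicit false
set_option maxRecDepth 100000
set_option linter.style.longLine false

namespace CfsgLib.Chev.SplitF4

open Cfsg.Lie CfsgLib.Chev

/-- Witnesses. -/
def wit : List (ℕ × ℕ × ℕ) := [(1, 47, 0), (0, 39, 1), (1, 39, 1), (8, 40, 0), (9, 40, 0), (10, 40, 0), (0, 40, 1), (1, 40, 1), (2, 40, 1), (7, 44, 0), (8, 44, 0), (9, 44, 0), (10, 44, 0), (11, 44, 0), (12, 44, 0), (13, 44, 0), (14, 44, 0), (0, 44, 1), (1, 44, 1), (2, 44, 1), (33, 40, 0), (4, 44, 1), (5, 44, 1), (6, 44, 1)]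

/-- The pairs which the torus over the field with three elements does not separate, with words. -/
def ex : List ((ℕ × ℕ) × List ℕ) := [((24, 32), [2, 1, 2]), ((24, 43), [2, 0, 1, 2, 0]), ((24, 45), [1, 2, 0, 1, 2, 0, 1]),
  ((25, 30), [1]), ((25, 41), [0, 1, 0]), ((25, 47), [3, 1, 2, 0, 1, 2, 3, 0, 1]), ((26, 31), [1]),
  ((26, 42), [0, 1, 0]), ((26, 46), [1, 2, 0, 1, 2, 0, 1]), ((30, 41), [0]),
  ((30, 47), [3, 2, 0, 1, 2, 3, 0]), ((31, 42), [0]), ((31, 46), [2, 0, 1, 2, 0]), ((32, 43), [0]),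
  ((32, 45), [0, 1, 0]), ((41, 47), [3, 2, 1, 2, 3]), ((42, 46), [2, 1, 2]), ((43, 45), [1])]

theorem can_le : canChk chevF4 (goodLe 2) = true := by decide +kernel

theorem can_three : canChk chevF4 goodOdd = true := by decide +kernel

theorem pairs_le : pairsChk chevF4 (goodLe 2) nullZero [] = true := by decide +kernel

theorem pairs_three : pairsChk chevF4 goodOdd nullEven (ex.map Prod.fst) = true := by decide +kernel

theorem mono_three : (ex.all fun x => sysF4.{0}.monoChk x.2 x.1.1 x.1.2 && Sys.commChk chevF4 0 x.1.1 x.1.2) = true := by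
  decide +kernel

theorem same_le : sameChk chevF4 (goodLe 2) nullZero 0 false wit = true := by decide +kernel

end CfsgLib.Chev.SplitF4
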