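import Cfsg.Agent.Chev.Cover.SplitChk
import Cfsg.Agent.Chev.Inst

/-!
# Torus certificates of type G2
-/

set_option autoImplicit false
set_option maxRecDepth 100000
set_option linter.style.longLine false

namespace CfsgLib.Chev.SplitG2

open Cfsg.Lie CfsgLib.Chev

theorem can_le : canChk chevG2 (goodLe 3) = true := by decide +kernel

theorem pairs_le : pairsChk chevG2 (goodLe 3) nullZero [] = true := by decide +kernel

theorem same_five : sameChk chevG2 (goodLe 3) nullZero 0 true [] = true := by decide +kernel

end CfsgLib.Chev.SplitG2
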