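import Cfsg.Agent.Chev.Cover.SplitTbl
import Cfsg.Agent.Chev.Inst

/-!
# Certificates of type E7 over the field with two elements
-/

set_option autoImplicit false
set_option maxRecDepth 100000
set_option Elab.async false

namespace CfsgLib.Chev.SplitE7

open Cfsg.Lie CfsgLib.Chev

theorem rows_ok : rowsChk DataE7.tbl = true := by decide +kernel

theorem shape_ok : shapeChk chevE7 = true := shape_of_rows DataE7.linked rows_ok

theorem comm_base_ok : commBaseChk chevE7 = true :=
  commBase_of_tbl DataE7.linked rows_ok (by decide +kernel)

theorem dec_base_ok : decBaseChk chevE7 = true :=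
  decBase_of_tbl DataE7.linked rows_ok (by decide +kernel)

end CfsgLib.Chev.SplitE7
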