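import Cfsg.Agent.Chev.Cover.Groups
import Cfsg.Agent.Chev.Cover.Symbol

/-!
# Over a finite field the two presented groups coincide
-/

set_option autoImplicit false

namespace CfsgLib.Chev

open Cfsg.Lie

universe u

namespace Sys

variable {D : ChevalleyDatum} (S : Sys.{u} D)

include S in
/-- The relators (R3) hold in the group presented by (R1), (R2) over a finite field. -/
theorem exists_cover_equiv (hg : GenOK D) (F : Type u) [Field F] [Finite F] :
    ∃ e : D.SteinbergCover F ≃* D.SteinbergGroup F, ∀ (r : ℕ) (t : F),
      e (D.scGen F r t) = D.stGen F r t := by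
  have hC : ∀ r t, (S.coverLift F).h r t =
      PresentedGroup.mk (D.steinbergRelsAB F) (D.stH r t) := by
    intro r t
    simp only [Lift.h, Lift.n, ChevalleyDatum.stH, ChevalleyDatum.stWord, ChevalleyDatum.hWord,
      ChevalleyDatum.nWord, List.map_append, List.map_cons, List.map_nil, List.prod_append,
      List.prod_cons, List.prod_nil, mul_one, map_mul, mul_assoc]
    rfl
  have hsub : D.steinbergRels F ⊆
      ((PresentedGroup.mk (D.steinbergRelsAB F)).ker : Set (FreeGroup (Fin D.nroots × F))) := by
    rintro g (hg1 | ⟨r, t, v, hr, ht, hv, rfl⟩)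
    · exact (QuotientGroup.eq_one_iff _).2 (Subgroup.subset_normalClosure hg1)
    · rw [SetLike.mem_coe, MonoidHom.mem_ker, map_mul, map_mul, map_inv, ← hC, ← hC, ← hC,
        (S.coverLift F).h_mul_all hg r hr t v ht hv, mul_inv_cancel]
  have hlift : ∀ g : FreeGroup (Fin D.nroots × F),
      FreeGroup.lift (fun p => (PresentedGroup.of p : D.SteinbergCover F)) g =
        PresentedGroup.mk (D.steinbergRelsAB F) g := fun g =>
    DFunLike.congr_fun (FreeGroup.ext_hom _ (PresentedGroup.mk (D.steinbergRelsAB F))
      (fun p => by simp [PresentedGroup.of])) g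
  have hlift' : ∀ g : FreeGroup (Fin D.nroots × F),
      FreeGroup.lift (fun p => (PresentedGroup.of p : D.SteinbergGroup F)) g =
        PresentedGroup.mk (D.steinbergRels F) g := fun g =>
    DFunLike.congr_fun (FreeGroup.ext_hom _ (PresentedGroup.mk (D.steinbergRels F))
      (fun p => by simp [PresentedGroup.of])) g
  let f : D.SteinbergCover F →* D.SteinbergGroup F :=
    PresentedGroup.toGroup (f := fun p => PresentedGroup.of p) fun g hg1 => by
      rw [hlift']
      exact (QuotientGroup.eq_one_iff _).2 (Subgroup.subset_normalClosure (Or.inl hg1))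
  let b : D.SteinbergGroup F →* D.SteinbergCover F :=
    PresentedGroup.toGroup (f := fun p => PresentedGroup.of p) fun g hg1 => by
      rw [hlift]
      exact MonoidHom.mem_ker.1 (hsub hg1)
  refine ⟨MonoidHom.toMulEquiv f b (PresentedGroup.ext fun p => ?_)
    (PresentedGroup.ext fun p => ?_), fun r t => ?_⟩
  · simp [f, b, PresentedGroup.toGroup.of]
  · simp [f, b, PresentedGroup.toGroup.of]
  · exact hlift' (D.stX r t)

end Sys

end CfsgLib.Chev
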