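import Cfsg.Agent.Chev.Cover.Universal
import Cfsg.Agent.Schur.Basic

/-!
# Schur multipliers from universality
-/

set_option autoImplicit false
set_option linter.style.haveILetI false

namespace CfsgLib.Chev.Sys

open Cfsg.Lie Matrix CfsgLib.Schur

universe u

variable {D : ChevalleyDatum} (S : Sys.{u} D) (hg : GenOK D) {F : Type u} [Field F] [Finite F]
include S hg

theorem finite_steinberg : Finite (D.SteinbergGroup F) := by
  haveI := Fintype.ofFinite F
  haveI : Finite (GL D.Idx F) := inferInstance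
  obtain ⟨φ, -, hφ⟩ := (S.stLift F).ker_subset_param hg S.stLift_R3
  have hsub : ((S.stLift F).θ.ker : Set (D.SteinbergGroup F)) ⊆ Set.range φ := by
    intro z hz
    rw [SetLike.mem_coe, (S.stLift F).θ_ker] at hz
    obtain ⟨c, -, hc⟩ := (hφ z).1 hz
    exact ⟨c, hc⟩
  haveI : Finite ↥(S.stLift F).θ.ker := ((Set.finite_range φ).subset hsub).to_subtype
  haveI : Finite (D.SteinbergGroup F ⧸ (S.stLift F).θ.ker) :=
    Finite.of_injective _ (QuotientGroup.kerLift_injective (S.stLift F).θ)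
  exact Finite.of_equiv _ (Subgroup.groupEquivQuotientProdSubgroup (s := (S.stLift F).θ.ker)).symm

variable {p : ℕ} [hp : Fact p.Prime] [CharP F p]

/-- The kernel of a stem extension is an image of the centre of Steinberg's group. -/
theorem exists_surj_center (hno : NoPCover D F p) {Γ : Type u} [Group Γ] [Finite Γ]
    {σ : Γ →* D.group F} (hσ : Cfsg.IsStemExtension σ) :
    ∃ π : ↥(Subgroup.center (D.SteinbergGroup F)) →* σ.ker, Function.Surjective π := by
  obtain ⟨ψ, hψ, hcomp⟩ := S.exists_factor hg hno hσ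
  have hker : ∀ z : ↥(Subgroup.center (D.SteinbergGroup F)), ψ z ∈ σ.ker := fun z => by
    have hz : (z : D.SteinbergGroup F) ∈ (S.stLift F).θ.ker := by
      rw [(S.stLift F).θ_ker_eq_center hg]; exact z.2
    rw [MonoidHom.mem_ker, ← MonoidHom.comp_apply, hcomp]
    exact hz
  refine ⟨MonoidHom.codRestrict (ψ.comp (Subgroup.center (D.SteinbergGroup F)).subtype) σ.ker hker,
    fun y => ?_⟩
  obtain ⟨g, hgy⟩ := hψ y
  have hgc : g ∈ Subgroup.center (D.SteinbergGroup F) := by
    rw [← (S.stLift F).θ_ker_eq_center hg, MonoidHom.mem_ker, ← hcomp, MonoidHom.comp_apply, hgy]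
    exact y.2
  exact ⟨⟨g, hgc⟩, Subtype.ext hgy⟩

/-- The multiplier is trivial when the universal group has trivial centre. -/
theorem multiplier_trivial (hno : NoPCover D F p)
    (hZ : Subgroup.center (D.SteinbergGroup F) = ⊥) : Cfsg.HasCyclicSchurMultiplier ↥(D.group F) 1 := by
  haveI := finite_GL (D := D) (F := F)
  haveI : Finite (D.group F) := inferInstance
  refine hasTrivial_of fun Γ _ _ σ hσ => ?_
  obtain ⟨π, hπ⟩ := S.exists_surj_center hg hno hσ
  rw [eq_bot_iff]
  intro y hy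
  obtain ⟨⟨z, hz⟩, hzy⟩ := hπ ⟨y, hy⟩
  obtain rfl : z = 1 := by rwa [hZ, Subgroup.mem_bot] at hz
  rw [Subgroup.mem_bot]
  exact (congrArg Subtype.val (hzy.symm.trans (map_one π)))

/-- Steinberg's group gives the multiplier when its centre has order one or a prime. -/
theorem multiplier_cyclic (hno : NoPCover D F p) (hperf : commutator (D.SteinbergGroup F) = ⊤)
    {n : ℕ} (hn : n = 1 ∨ n.Prime) (hZ : Nat.card (Subgroup.center (D.SteinbergGroup F)) = n) :
    Cfsg.HasCyclicSchurMultiplier ↥(D.group F) n := by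
  haveI := S.finite_steinberg hg (F := F)
  haveI : NeZero n := ⟨by rcases hn with rfl | h; exacts [one_ne_zero, h.ne_zero]⟩
  have hcyc : IsCyclic ↥(Subgroup.center (D.SteinbergGroup F)) := by
    rcases hn with rfl | h
    · haveI := (Nat.card_eq_one_iff_unique.1 hZ).1
      exact isCyclic_of_subsingleton
    · haveI := Fact.mk h
      exact isCyclic_of_prime_card hZ
  have e : ↥(Subgroup.center (D.SteinbergGroup F)) ≃* Multiplicative (ZMod n) :=
    mulEquivOfCyclicCardEq (by rw [hZ, Nat.card_eq_fintype_card, Fintype.card_multiplicative, ZMod.card])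
  refine ⟨⟨D.SteinbergGroup F, inferInstance, inferInstance, (S.stLift F).θ,
    ⟨(S.stLift F).θ_surjective, (S.stLift F).θ_ker_le_center hg, by rw [hperf]; exact le_top⟩,
    ⟨(MulEquiv.subgroupCongr ((S.stLift F).θ_ker_eq_center hg)).trans e⟩⟩, fun Γ _ _ σ hσ => ?_⟩
  obtain ⟨π, hπ⟩ := S.exists_surj_center hg hno hσ
  exact ⟨π.comp e.symm.toMonoidHom, hπ.comp e.symm.surjective⟩

/-- Steinberg's group has trivial multiplier. -/
theorem steinberg_multiplier_trivial (hno : NoPCover D F p)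
    (hperf : commutator (D.SteinbergGroup F) = ⊤) :
    Cfsg.HasCyclicSchurMultiplier (D.SteinbergGroup F) 1 := by
  haveI := S.finite_steinberg hg (F := F)
  refine hasTrivial_of fun Γ _ _ τ hτ => ?_
  obtain ⟨hs, hc, hst⟩ := hτ
  -- the cover is perfect
  have hperfΓ : commutator Γ = ⊤ := by
    rw [eq_top_iff]
    intro g _
    have h1 : τ g ∈ (commutator Γ).map τ := by
      rw [commutator_def, Subgroup.map_commutator, ← MonoidHom.range_eq_map,
        MonoidHom.range_eq_top.2 hs, ← commutator_def, hperf]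
      trivial
    obtain ⟨a, ha, hag⟩ := h1
    have h2 : a⁻¹ * g ∈ τ.ker := by rw [MonoidHom.mem_ker, map_mul, map_inv, hag, inv_mul_cancel]
    have := mul_mem ha (hst h2)
    rwa [mul_inv_cancel_left] at this
  -- central homomorphisms from a perfect group are trivial
  have hzero : ∀ {H : Type u} [Group H] {Q : Type u} [Group Q] (f : H → Q),
      (∀ a b, f (a * b) = f a * f b) → (∀ a, f a ∈ Subgroup.center Q) → commutator H = ⊤ →
      ∀ a, f a = 1 := by
    intro H _ Q _ f hf hfc hH a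
    letI : CommGroup ↥(Subgroup.center Q) :=
      { (inferInstance : Group ↥(Subgroup.center Q)) with
        mul_comm := fun x y => Subtype.ext (Subgroup.mem_center_iff.1 y.2 x) }
    let f' : H →* ↥(Subgroup.center Q) :=
      MonoidHom.mk' (fun a => ⟨f a, hfc a⟩) fun a b => Subtype.ext (hf a b)
    have h1 : f' a = 1 := Abelianization.commutator_subset_ker f' (by rw [hH]; trivial)
    exact congrArg Subtype.val h1
  set σ := (S.stLift F).θ.comp τ with hσdef
  have hσc : σ.ker ≤ Subgroup.center Γ := by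
    intro z hz
    have hz' : τ z ∈ Subgroup.center (D.SteinbergGroup F) := by
      rw [← (S.stLift F).θ_ker_eq_center hg]; exact hz
    refine Subgroup.mem_center_iff.2 fun g => ?_
    have hmem : ∀ g : Γ, z * g * z⁻¹ * g⁻¹ ∈ Subgroup.center Γ := fun g => hc (by
      rw [MonoidHom.mem_ker, map_mul, map_mul, map_mul, map_inv, map_inv,
        ← Subgroup.mem_center_iff.1 hz' (τ g)]
      group)
    have h := hzero (fun g => z * g * z⁻¹ * g⁻¹) (fun a b => by
      calc z * (a * b) * z⁻¹ * (a * b)⁻¹ = z * a * z⁻¹ * (z * b * z⁻¹ * b⁻¹) * a⁻¹ := by group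
        _ = z * a * z⁻¹ * (a⁻¹ * (z * b * z⁻¹ * b⁻¹)) := by
            rw [mul_assoc _ (z * b * z⁻¹ * b⁻¹) a⁻¹, Subgroup.mem_center_iff.1 (hmem b) a⁻¹]
        _ = z * a * z⁻¹ * a⁻¹ * (z * b * z⁻¹ * b⁻¹) := by group) hmem hperfΓ g
    rw [mul_inv_eq_one, mul_inv_eq_iff_eq_mul] at h
    exact h.symm
  have hσs : Cfsg.IsStemExtension σ :=
    ⟨(S.stLift F).θ_surjective.comp hs, hσc, by rw [hperfΓ]; exact le_top⟩
  obtain ⟨ψ, hψ, hcomp⟩ := S.exists_factor hg hno hσs
  -- `τ ∘ ψ` is the identity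
  have hθ : ∀ g, (S.stLift F).θ (τ (ψ g)) = (S.stLift F).θ g := fun g => DFunLike.congr_fun hcomp g
  have hd : ∀ g, g⁻¹ * τ (ψ g) ∈ Subgroup.center (D.SteinbergGroup F) := fun g => by
    rw [← (S.stLift F).θ_ker_eq_center hg, MonoidHom.mem_ker, map_mul, map_inv, hθ, inv_mul_cancel]
  have hid : ∀ g, τ (ψ g) = g := fun g => by
    have h := hzero (fun g => g⁻¹ * τ (ψ g)) (fun a b => by
      rw [map_mul, map_mul]
      calc (a * b)⁻¹ * (τ (ψ a) * τ (ψ b)) = b⁻¹ * (a⁻¹ * τ (ψ a)) * τ (ψ b) := by group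
        _ = a⁻¹ * τ (ψ a) * b⁻¹ * τ (ψ b) := by rw [Subgroup.mem_center_iff.1 (hd a) b⁻¹]
        _ = a⁻¹ * τ (ψ a) * (b⁻¹ * τ (ψ b)) := by group) hd hperf g
    exact (inv_mul_eq_one.1 h).symm
  rw [eq_bot_iff]
  intro z hz
  obtain ⟨g, rfl⟩ := hψ z
  rw [MonoidHom.mem_ker, hid] at hz
  rw [hz, map_one]
  exact one_mem _

end CfsgLib.Chev.Sys
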