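import Cfsg.Agent.Chev.Cover.SplitChk
import Cfsg.Agent.Chev.Inst

/-!
# Covers of degree three of the group of type B₂ over the field with three elements

The torus does not move the long root elements, so the inverse image of `U` is computed by hand: it
is generated modulo the kernel by lifts `A`, `B` of the fundamental root elements, and its
commutator subgroup is the elementary abelian group generated by `C = ⁅A, B⁆` and `M = ⁅A, C⁆`.
-/

set_option autoImplicit false
set_option linter.style.haveILetI false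

namespace CfsgLib.Chev.B2Three

open Cfsg.Lie Matrix CfsgLib.Schur
open scoped commutatorElement

universe u

variable {F : Type u} [Field F]

/-- The root elements. -/
noncomputable abbrev x (r : ℕ) (t : F) : chevB2.group F := sysB2.{u}.xg r t

theorem nroots_eq : chevB2.nroots = 8 := by decide +kernel

theorem x54 (t v : F) : x 5 v * x 4 t = x 4 t * x 5 v * (x 6 (-t * v) * x 7 (t * v ^ 2)) := by
  have h := sysB2.{u}.comm_wU (F := F) (r := 4) (s := 5) (by rw [nroots_eq]; omega)
    (by rw [nroots_eq]; omega) (by omega) (by decide +kernel) t v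
  rw [Sys.wU, ChevalleyDatum.commWord,
    show chevB2.commTerms 4 5 = [(6, 1, 1, 1), (7, -1, 1, 2)] by decide +kernel] at h
  simp only [List.map_cons, List.map_nil, List.prod_cons, List.prod_nil, mul_one, pow_one,
    Int.cast_one, Int.cast_neg, one_mul, neg_mul, neg_mul_neg] at h
  refine Subtype.ext ?_
  push_cast
  simp only [x, Sys.coe_xg, neg_mul]
  rw [h]
  simp [_root_.neg_neg]

theorem x65 (t v : F) : x 6 v * x 5 t = x 5 t * x 6 v * x 7 (-(2 * t * v)) := by
  have h := sysB2.{u}.comm_wU (F := F) (r := 5) (s := 6) (by rw [nroots_eq]; omega)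
    (by rw [nroots_eq]; omega) (by omega) (by decide +kernel) t v
  rw [Sys.wU, ChevalleyDatum.commWord,
    show chevB2.commTerms 5 6 = [(7, 2, 1, 1)] by decide +kernel] at h
  simp only [List.map_cons, List.map_nil, List.prod_cons, List.prod_nil, mul_one, pow_one,
    Int.cast_ofNat] at h
  refine Subtype.ext ?_
  push_cast
  simp only [x, Sys.coe_xg]
  rw [h, show (2 : F) * -t * v = -(2 * t * v) by ring]

theorem xcomm {r s : ℕ} (hr : r < 8) (hs : s < 8) (h : Sys.commChk chevB2 0 r s = true) (t v : F) :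
    x r t * x s v = x s v * x r t :=
  sysB2.{u}.comm_of_chk (d := 0) Nat.cast_zero (by rw [nroots_eq]; omega) (by rw [nroots_eq]; omega) h t v

theorem xadd (r : ℕ) (t v : F) : x r t * x r v = x r (t + v) := (sysB2.{u}.xg_add r t v).symm

/-- The image of the commutator of the lifts of the fundamental root elements. -/
theorem x_comm54 : ⁅x (F := F) 5 1, x (F := F) 4 1⁆ = x 6 (-1) * x 7 (-1) := by
  have h1 := x54 (F := F) 1 1
  have h2 : x 5 (1 : F) * x 6 (-1) * (x 5 1)⁻¹ = x 6 (-1) * x 7 (-2) := by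
    have e := x65 (F := F) 1 (-1)
    rw [show -(2 * (1 : F) * -1) = 2 by ring] at e
    have e7 : (x 7 (2 : F))⁻¹ = x 7 (-2) := sysB2.{u}.xg_inv 7 2
    have h57 := xcomm (F := F) (r := 5) (s := 7) (by omega) (by omega) (by decide +kernel) 1 (-2)
    rw [mul_inv_eq_iff_eq_mul, mul_assoc (x 6 (-1)), ← h57, ← mul_assoc, e, ← e7, mul_inv_cancel_right]
  rw [commutatorElement_def, h1, show -(1 : F) * 1 = -1 by ring, show (1 : F) * 1 ^ 2 = 1 by ring]
  have h57 := xcomm (F := F) (r := 5) (s := 7) (by omega) (by omega) (by decide +kernel) 1 1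
  have h46 := xcomm (F := F) (r := 4) (s := 6) (by omega) (by omega) (by decide +kernel) 1 (-1)
  have h47 := xcomm (F := F) (r := 4) (s := 7) (by omega) (by omega) (by decide +kernel) 1 (-1)
  calc x 4 (1 : F) * x 5 1 * (x 6 (-1) * x 7 1) * (x 5 1)⁻¹ * (x 4 1)⁻¹
      = x 4 1 * (x 5 1 * x 6 (-1) * (x 5 1)⁻¹) * (x 5 1 * x 7 1 * (x 5 1)⁻¹) * (x 4 1)⁻¹ := by group
    _ = x 4 1 * (x 6 (-1) * x 7 (-2)) * x 7 1 * (x 4 1)⁻¹ := by
        rw [h2, h57, mul_inv_cancel_right]
    _ = x 4 1 * x 6 (-1) * x 7 (-1) * (x 4 1)⁻¹ := by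
        rw [mul_assoc (x 4 1) _ (x 7 1), mul_assoc (x 6 (-1)), xadd,
          show (-2 : F) + 1 = -1 by ring]; simp only [mul_assoc]
    _ = x 6 (-1) * x 7 (-1) := by
        rw [h46, mul_assoc (x 6 (-1)), h47, mul_assoc, mul_inv_cancel_right]

variable [Finite F] [CharP F 3]

/-- Every element of the field is a multiple of one. -/
theorem exists_nat (hq : Nat.card F = 3) (t : F) : ∃ n : ℕ, (n : F) = t := by
  haveI := Fintype.ofFinite F
  haveI : Fact (Nat.Prime 3) := ⟨Nat.prime_three⟩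
  have hsurj : Function.Surjective (ZMod.castHom (dvd_refl 3) F) :=
    ((Fintype.bijective_iff_injective_and_card _).2 ⟨(ZMod.castHom (dvd_refl 3) F).injective,
      by rw [ZMod.card, ← Nat.card_eq_fintype_card, hq]⟩).2
  obtain ⟨z, hz⟩ := hsurj t
  exact ⟨z.val, by rw [← hz, ← map_natCast (ZMod.castHom (dvd_refl 3) F), ZMod.natCast_zmod_val]⟩

omit [Finite F] [CharP F 3] in
theorem x_pow (r : ℕ) (t : F) : ∀ n : ℕ, x r t ^ n = x r ((n : F) * t)
  | 0 => by rw [pow_zero, Nat.cast_zero, zero_mul]; exact (sysB2.{u}.xg_zero r).symm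
  | n + 1 => by rw [pow_succ, x_pow r t n, xadd, Nat.cast_succ, add_one_mul]

variable {Δ : Type u} [Group Δ] {τ : Δ →* chevB2.group F} {e : Δ} (c : PrimeCover τ e 3)
include c

/-- Lifts of separated root elements commute. -/
theorem lift_comm_sep (hq : Nat.card F = 3) {r s : ℕ} (hr : r < 8) (hs : s < 8)
    (h : Sys.commChk chevB2 0 r s = true) (h' : sepChk chevB2 goodOdd nullEven r s = true)
    {X Y : Δ} {t v : F} (hX : τ X = x r t) (hY : τ Y = x s v) : Commute X Y :=
  sysB2.{u}.rootComm_of_vanishes (p := 3) (by rw [nroots_eq]; omega) (by rw [nroots_eq]; omega)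
    (xcomm hr hs h) (vanishes_of_sep (expPred_three F hq) h') Δ τ e c X Y t v hX hY

theorem lift_comm_same (hq : Nat.card F = 3) {r : ℕ} {X Y : Δ} {t v : F} (hX : τ X = x r t)
    (hY : τ Y = x r v) : Commute X Y :=
  haveI : Fact (Nat.Prime 3) := ⟨Nat.prime_three⟩
  sysB2.{u}.rootComm_prime (p := 3) hq r Δ τ e c X Y t v hX hY

/-- Lifts of the two long root elements commute. -/
theorem lift_comm47 (hq : Nat.card F = 3) {X Y : Δ} {t v : F} (hX : τ X = x 4 t) (hY : τ Y = x 7 v) :
    Commute X Y := by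
  have h3 : (3 : F) = 0 := by exact_mod_cast CharP.cast_eq_zero F 3
  obtain ⟨A, hA⟩ := c.surj (x 5 v)
  obtain ⟨C, hC⟩ := c.surj (x 6 (1 : F))
  obtain ⟨W6, hW6⟩ := c.surj (x 6 (t * v))
  obtain ⟨W7, hW7⟩ := c.surj (x 7 (-(t * v ^ 2)))
  have hXC : X * C * X⁻¹ = C := by
    rw [(lift_comm_sep c hq (by omega) (by omega) (by decide +kernel) (by decide +kernel) hX hC).eq,
      mul_inv_cancel_right]
  have hconjA : τ (X * A * X⁻¹) = τ (A * (W7 * W6)) := by
    rw [map_mul, map_mul, map_mul, map_mul, map_inv, hX, hA, hW6, hW7, mul_inv_eq_iff_eq_mul]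
    have h46 := xcomm (F := F) (r := 4) (s := 6) (by omega) (by omega) (by decide +kernel) t (t * v)
    have h47 := xcomm (F := F) (r := 4) (s := 7) (by omega) (by omega) (by decide +kernel) t
      (-(t * v ^ 2))
    rw [mul_assoc (x 5 v), ((Commute.mul_right h47 h46).symm).eq, ← mul_assoc, x54, mul_assoc,
      mul_assoc (x 6 (-t * v)), ← mul_assoc (x 7 (t * v ^ 2)), xadd, add_neg_cancel]
    simp only [x, sysB2.{u}.xg_zero, one_mul]
    rw [xadd, show -t * v + t * v = 0 by ring]
    simp only [x, sysB2.{u}.xg_zero, mul_one]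
  have hWC : Commute (W7 * W6) C :=
    ((lift_comm_sep c hq (by omega) (by omega) (by decide +kernel) (by decide +kernel) hC hW7).symm).mul_left
      (lift_comm_same c hq hW6 hC)
  have hfix : X * ⁅C, A⁆ * X⁻¹ = ⁅C, A⁆ := by
    rw [show X * ⁅C, A⁆ * X⁻¹ = ⁅X * C * X⁻¹, X * A * X⁻¹⁆ by
      simp only [commutatorElement_def]; group, hXC, c.comm_eq (x := C) rfl hconjA,
      show ⁅C, A * (W7 * W6)⁆ = ⁅C, A⁆ * (A * (C * (W7 * W6) * C⁻¹ * (W7 * W6)⁻¹) * A⁻¹) by
        simp only [commutatorElement_def]; group, ← hWC.eq]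
    group
  have himg : τ Y = τ ⁅C, A⁆ := by
    rw [map_commutatorElement, hC, hA, hY, commutatorElement_def, x65,
      show -(2 * v * (1 : F)) = v by linear_combination (-v) * h3]
    have h67 := xcomm (F := F) (r := 6) (s := 7) (by omega) (by omega) (by decide +kernel) 1 v
    have h57 := xcomm (F := F) (r := 5) (s := 7) (by omega) (by omega) (by decide +kernel) v v
    rw [mul_assoc (x 5 v), h67, ← mul_assoc, mul_inv_cancel_right, h57, mul_inv_cancel_right]
  obtain ⟨z, hz, rfl⟩ := c.exists_of_map_eq himg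
  refine Commute.mul_right ?_ (c.comm X hz)
  exact mul_inv_eq_iff_eq_mul.1 hfix

omit c in
/-- Commutators in a group generated by two elements lie in any subgroup that they normalise and
that contains their commutator. -/
theorem comm_mem_of_gen {G : Type u} [Group G] {A B : G} {S : Subgroup G}
    (hA : A ∈ Subgroup.normalizer (S : Set G)) (hB : B ∈ Subgroup.normalizer (S : Set G))
    (hAB : (⁅A, B⁆ : G) ∈ S) {g h : G} (hg : g ∈ Subgroup.closure {A, B})
    (hh : h ∈ Subgroup.closure {A, B}) : (⁅g, h⁆ : G) ∈ S := by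
  have hle : Subgroup.closure {A, B} ≤ Subgroup.normalizer (S : Set G) := by
    rw [Subgroup.closure_le]; rintro a (rfl | rfl) <;> assumption
  have hconj : ∀ n ∈ Subgroup.closure {A, B}, ∀ s ∈ S, n * s * n⁻¹ ∈ S := fun n hn s hs =>
    (Subgroup.mem_normalizer_iff.1 (hle hn) s).1 hs
  have step : ∀ g : G, (⁅g, A⁆ ∈ S ∧ ⁅g, B⁆ ∈ S) → ∀ h ∈ Subgroup.closure {A, B}, ⁅g, h⁆ ∈ S := by
    intro g hgAB h hh
    induction hh using Subgroup.closure_induction with
    | mem y hy => rcases hy with rfl | rfl; exacts [hgAB.1, hgAB.2]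
    | one => rw [commutatorElement_one_right]; exact one_mem _
    | mul a b ha _ iha ihb =>
      rw [show ⁅g, a * b⁆ = ⁅g, a⁆ * (a * ⁅g, b⁆ * a⁻¹) by simp only [commutatorElement_def]; group]
      exact mul_mem iha (hconj a ha _ ihb)
    | inv a ha iha =>
      rw [show ⁅g, a⁻¹⁆ = a⁻¹ * ⁅g, a⁆⁻¹ * (a⁻¹)⁻¹ by simp only [commutatorElement_def]; group]
      exact hconj _ (inv_mem ha) _ (inv_mem iha)
  have hAX : ∀ h ∈ Subgroup.closure {A, B}, ⁅A, h⁆ ∈ S :=
    step A ⟨by rw [commutatorElement_self]; exact one_mem _, hAB⟩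
  have hBX : ∀ h ∈ Subgroup.closure {A, B}, ⁅B, h⁆ ∈ S :=
    step B ⟨by rw [← commutatorElement_inv]; exact inv_mem hAB,
      by rw [commutatorElement_self]; exact one_mem _⟩
  refine step g ⟨?_, ?_⟩ h hh
  · rw [← commutatorElement_inv]; exact inv_mem (hAX g hg)
  · rw [← commutatorElement_inv]; exact inv_mem (hBX g hg)

end CfsgLib.Chev.B2Three

namespace CfsgLib.Chev.B2Three

open Cfsg.Lie Matrix CfsgLib.Schur
open scoped commutatorElement

universe u

variable {F : Type u} [Field F] [Finite F] [CharP F 3]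

/-- **The group of type B₂ over the field with three elements has no covers of degree three.** -/
theorem noPCover (hq : Nat.card F = 3) : NoPCover chevB2 F 3 := by
  intro Δ _ _ τ e c he
  haveI : Fact (Nat.Prime 3) := ⟨Nat.prime_three⟩
  have h3 : (3 : F) = 0 := by exact_mod_cast CharP.cast_eq_zero F 3
  have hP : IsPGroup 3 (Sys.posG (D := chevB2) F) :=
    (sysB2.{u}.isPGroup_pos (F := F) 3).comap_of_injective _ Subtype.val_injective
  have hmem := c.mem_commutator he (hP.toSylow (sysB2.{u}.not_dvd_index_pos 3))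
  obtain ⟨A, hA⟩ := c.surj (x 5 (1 : F))
  obtain ⟨B, hB⟩ := c.surj (x 4 (1 : F))
  obtain ⟨Y6, hY6⟩ := c.surj (x 6 (-1 : F))
  obtain ⟨Y7, hY7⟩ := c.surj (x 7 (-1 : F))
  set C := ⁅A, B⁆ with hCdef
  set M := ⁅A, C⁆ with hMdef
  have hC : τ C = x 6 (-1) * x 7 (-1) := by
    rw [hCdef, map_commutatorElement, hA, hB, x_comm54]
  obtain ⟨z, hz, hCz⟩ := c.exists_of_map_eq
    (show τ C = τ (Y6 * Y7) by rw [hC, map_mul, hY6, hY7])
  have hcommC : ∀ X, Commute X Y6 → Commute X Y7 → Commute X C := fun X h6 h7 => by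
    rw [hCz]; exact (h6.mul_right h7).mul_right (c.comm X hz)
  have hM : τ M = x 7 (1 : F) := by
    rw [hMdef, map_commutatorElement, hA, hC, commutatorElement_def, _root_.mul_inv_rev]
    have e := x65 (F := F) 1 (-1)
    rw [show -(2 * (1 : F) * -1) = -1 by linear_combination h3] at e
    have h57 := xcomm (F := F) (r := 5) (s := 7) (by omega) (by omega) (by decide +kernel) 1 (-1)
    rw [show x 5 (1 : F) * (x 6 (-1) * x 7 (-1)) = x 6 (-1) * x 5 1 by rw [← mul_assoc, e]]
    simp only [x, sysB2.{u}.xg_inv]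
    have h67 := xcomm (F := F) (r := 6) (s := 7) (by omega) (by omega) (by decide +kernel) (-1) 1
    simp only [x] at h67
    rw [_root_.neg_neg, mul_assoc (sysB2.{u}.xg 6 (-1)), ← sysB2.{u}.xg_add, add_neg_cancel,
      sysB2.{u}.xg_zero, mul_one, ← mul_assoc, h67, mul_assoc, ← sysB2.{u}.xg_add, neg_add_cancel,
      sysB2.{u}.xg_zero, mul_one]
  have hAM : Commute A M :=
    lift_comm_sep c hq (by omega) (by omega) (by decide +kernel) (by decide +kernel) hA hM
  have hBM : Commute B M := lift_comm47 c hq hB hM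
  have hCM : Commute C M := (hcommC M
    (lift_comm_sep c hq (by omega) (by omega) (by decide +kernel) (by decide +kernel) hY6 hM).symm
    (lift_comm_same c hq hM hY7)).symm
  have hBC : Commute B C := hcommC B
    (lift_comm_sep c hq (by omega) (by omega) (by decide +kernel) (by decide +kernel) hB hY6)
    (lift_comm47 c hq hB hY7)
  have hACA : A * C * A⁻¹ = M * C := by
    rw [hMdef, commutatorElement_def, inv_mul_cancel_right]
  -- the cubes
  have hcube : ∀ {r : ℕ} {X : Δ} {t : F}, τ X = x r t → X ^ 3 ∈ τ.ker := fun {r X t} hX => by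
    rw [MonoidHom.mem_ker, map_pow, hX, x_pow,
      show ((3 : ℕ) : F) = 0 from CharP.cast_eq_zero F 3, zero_mul]
    exact sysB2.{u}.xg_zero r
  have hCker : C ^ 3 ∈ τ.ker := by
    rw [MonoidHom.mem_ker, map_pow, hC,
      (show Commute (x 6 (-1 : F)) (x 7 (-1)) from
        xcomm (by omega) (by omega) (by decide +kernel) _ _).mul_pow, x_pow, x_pow,
      show ((3 : ℕ) : F) = 0 from CharP.cast_eq_zero F 3, zero_mul]
    simp only [x, sysB2.{u}.xg_zero, mul_one]
  have hACk : ∀ k : ℕ, ⁅A, C ^ k⁆ = M ^ k := fun k => by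
    induction k with
    | zero => simp
    | succ k ih =>
      rw [pow_succ, pow_succ, show ⁅A, C ^ k * C⁆ = ⁅A, C ^ k⁆ * (C ^ k * ⁅A, C⁆ * (C ^ k)⁻¹) by
        simp only [commutatorElement_def]; group, ih, ← hMdef,
        (hCM.pow_left k).eq, mul_inv_cancel_right]
  have hM3 : M ^ 3 = 1 := by
    rw [← hACk, commutatorElement_eq_one_iff_mul_comm]
    exact c.comm A hCker
  have hC3 : C ^ 3 = 1 := by
    have h1 : ⁅A ^ 3, B⁆ = 1 := by
      rw [commutatorElement_eq_one_iff_mul_comm]; exact (c.comm B (hcube hA)).symm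
    have h2 : ⁅A ^ 3, B⁆ = A * (A * C * A⁻¹) * A⁻¹ * (A * C * A⁻¹) * C := by
      rw [hCdef, pow_succ, pow_succ, pow_one]
      simp only [commutatorElement_def]; group
    rw [h2, hACA, show A * (M * C) * A⁻¹ = A * M * A⁻¹ * (A * C * A⁻¹) by group, hAM.eq,
      mul_inv_cancel_right, hACA] at h1
    have h4 : M ^ 3 * C ^ 3 = 1 := by
      rw [← h1, pow_succ, pow_succ, pow_one, pow_succ, pow_succ, pow_one]
      have := hCM.eq
      calc M * M * M * (C * C * C) = M * M * (M * C) * C * C := by group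
        _ = M * M * (C * M) * C * C := by rw [this]
        _ = M * (M * C) * (M * C) * C := by group
    rwa [hM3, one_mul] at h4
  -- the subgroup generated by `C` and `M`
  let K := Subgroup.closure ({C, M} : Set Δ)
  have hKdec : ∀ k ∈ K, ∃ i j : ℕ, k = C ^ i * M ^ j := by
    intro k hk
    induction hk using Subgroup.closure_induction with
    | mem y hy =>
      rcases hy with rfl | rfl
      · exact ⟨1, 0, by simp⟩
      · exact ⟨0, 1, by simp⟩
    | one => exact ⟨0, 0, by simp⟩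
    | mul a b _ _ iha ihb =>
      obtain ⟨i, j, rfl⟩ := iha
      obtain ⟨i', j', rfl⟩ := ihb
      refine ⟨i + i', j + j', ?_⟩
      rw [pow_add, pow_add]
      calc C ^ i * M ^ j * (C ^ i' * M ^ j') = C ^ i * (M ^ j * C ^ i') * M ^ j' := by group
        _ = C ^ i * (C ^ i' * M ^ j) * M ^ j' := by rw [((hCM.pow_pow i' j).symm).eq]
        _ = C ^ i * C ^ i' * (M ^ j * M ^ j') := by group
    | inv a _ iha =>
      obtain ⟨i, j, rfl⟩ := iha
      refine ⟨2 * i, 2 * j, ?_⟩
      refine inv_eq_of_mul_eq_one_right ?_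
      calc C ^ i * M ^ j * (C ^ (2 * i) * M ^ (2 * j))
          = C ^ i * (M ^ j * C ^ (2 * i)) * M ^ (2 * j) := by group
        _ = C ^ i * (C ^ (2 * i) * M ^ j) * M ^ (2 * j) := by
            rw [((hCM.pow_pow (2 * i) j).symm).eq]
        _ = C ^ (3 * i) * M ^ (3 * j) := by
            rw [show 3 * i = i + 2 * i by omega, show 3 * j = j + 2 * j by omega, pow_add, pow_add]
            group
        _ = 1 := by rw [pow_mul, pow_mul, hC3, hM3, one_pow, one_pow, one_mul]
  have hKker : ∀ k ∈ K, τ k = 1 → k = 1 := by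
    intro k hk h1
    obtain ⟨i, j, rfl⟩ := hKdec k hk
    rw [map_mul, map_pow, map_pow, hC, hM,
      (show Commute (x 6 (-1 : F)) (x 7 (-1)) from
        xcomm (by omega) (by omega) (by decide +kernel) _ _).mul_pow, x_pow, x_pow, x_pow,
      mul_assoc, xadd] at h1
    have htail : ∀ t, ((x 7 t : chevB2.group F) : GL chevB2.Idx F) ∈ sysB2.{u}.tailU F 7 := fun t => by
      rw [Sys.coe_xg]; exact sysB2.{u}.xU_mem_tailU le_rfl (by rw [nroots_eq]; omega) t
    have hi : ((i : F) * -1) = 0 := by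
      refine sysB2.{u}.eq_zero_of_mem_tail (k := 6) (by rw [nroots_eq]; omega) (by rw [nroots_eq]; omega) ?_
      rw [← Sys.coe_xg]
      have := eq_inv_of_mul_eq_one_left h1
      rw [show x 6 ((i : F) * -1) = sysB2.{u}.xg 6 ((i : F) * -1) from rfl] at this
      rw [this]
      push_cast
      exact inv_mem (htail _)
    have hi3 : 3 ∣ i := by
      rw [mul_neg, mul_one, neg_eq_zero] at hi
      exact (CharP.cast_eq_zero_iff F 3 i).1 hi
    rw [hi] at h1
    simp only [x, sysB2.{u}.xg_zero, one_mul] at h1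
    have hj := sysB2.{u}.eq_zero_of_mem_tail (F := F) (k := 7) (c := 0 + (j : F) * 1)
      (by rw [nroots_eq]; omega) (by rw [nroots_eq]; omega)
      (by rw [← Sys.coe_xg, h1]; exact one_mem _)
    rw [zero_add, mul_one] at hj
    have hj3 : 3 ∣ j := (CharP.cast_eq_zero_iff F 3 j).1 hj
    obtain ⟨a, rfl⟩ := hi3
    obtain ⟨b, rfl⟩ := hj3
    rw [pow_mul, pow_mul, hC3, hM3, one_pow, one_pow, one_mul]
  -- `A` and `B` normalise it
  have hCK : C ∈ K := Subgroup.subset_closure (Set.mem_insert _ _)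
  have hMK : M ∈ K := Subgroup.subset_closure (Set.mem_insert_of_mem _ rfl)
  have hnormal : ∀ g : Δ, g * C * g⁻¹ ∈ K → g * M * g⁻¹ ∈ K → g⁻¹ * C * g⁻¹⁻¹ ∈ K →
      g⁻¹ * M * g⁻¹⁻¹ ∈ K → g ∈ Subgroup.normalizer (K : Set Δ) := by
    intro g h1 h2 h3 h4
    have key : ∀ a : Δ, a * C * a⁻¹ ∈ K → a * M * a⁻¹ ∈ K → ∀ k ∈ K, a * k * a⁻¹ ∈ K := by
      intro a ha ha' k hk
      have hle : K ≤ K.comap (MulAut.conj a).toMonoidHom :=
        (Subgroup.closure_le _).2 fun y hy => by rcases hy with rfl | rfl <;> assumption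
      exact hle hk
    rw [Subgroup.mem_normalizer_iff]
    intro k
    refine ⟨key g h1 h2 k, fun hk => ?_⟩
    have := key g⁻¹ h3 h4 _ hk
    rwa [show g⁻¹ * (g * k * g⁻¹) * g⁻¹⁻¹ = k by group] at this
  have hAn : A ∈ Subgroup.normalizer (K : Set Δ) := by
    refine hnormal A (by rw [hACA]; exact mul_mem hMK hCK)
      (by rw [hAM.eq, mul_inv_cancel_right]; exact hMK) ?_
      (by rw [inv_inv, mul_assoc, ← hAM.eq, inv_mul_cancel_left]; exact hMK)
    have h1 : A⁻¹ * C * A = M⁻¹ * C := by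
      have h := hACA
      rw [show M * C = M * C * (A * A⁻¹) by group, ← mul_assoc (M * C), mul_left_inj, mul_assoc M] at h
      calc A⁻¹ * C * A = A⁻¹ * (M⁻¹ * (M * (C * A))) := by group
        _ = A⁻¹ * (M⁻¹ * (A * C)) := by rw [h]
        _ = A⁻¹ * (M⁻¹ * A) * C := by group
        _ = A⁻¹ * (A * M⁻¹) * C := by rw [(hAM.inv_right).eq]
        _ = M⁻¹ * C := by group
    rw [inv_inv, h1]
    exact mul_mem (inv_mem hMK) hCK
  have hBn : B ∈ Subgroup.normalizer (K : Set Δ) :=
    hnormal B (by rw [hBC.eq, mul_inv_cancel_right]; exact hCK)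
      (by rw [hBM.eq, mul_inv_cancel_right]; exact hMK)
      (by rw [inv_inv, mul_assoc, ← hBC.eq, inv_mul_cancel_left]; exact hCK)
      (by rw [inv_inv, mul_assoc, ← hBM.eq, inv_mul_cancel_left]; exact hMK)
  -- the inverse image of `U`
  have hgenU : ∀ g ∈ Sys.posG (D := chevB2) F,
      g ∈ (Subgroup.closure ({A, B} : Set Δ)).map τ := by
    let I := (Subgroup.closure ({A, B} : Set Δ)).map τ
    have hpowmem : ∀ r, x r (1 : F) ∈ I → ∀ t, x r t ∈ I := fun r h t => by
      obtain ⟨n, rfl⟩ := exists_nat hq t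
      have := pow_mem h n
      rwa [x_pow, mul_one] at this
    have hAI : A ∈ Subgroup.closure ({A, B} : Set Δ) := Subgroup.subset_closure (Set.mem_insert _ _)
    have hBI : B ∈ Subgroup.closure ({A, B} : Set Δ) :=
      Subgroup.subset_closure (Set.mem_insert_of_mem _ rfl)
    have hCI : C ∈ Subgroup.closure ({A, B} : Set Δ) :=
      mul_mem (mul_mem (mul_mem hAI hBI) (inv_mem hAI)) (inv_mem hBI)
    have hMI : M ∈ Subgroup.closure ({A, B} : Set Δ) :=
      mul_mem (mul_mem (mul_mem hAI hCI) (inv_mem hAI)) (inv_mem hCI)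
    have h4 := hpowmem 4 ⟨B, hBI, hB⟩
    have h5 := hpowmem 5 ⟨A, hAI, hA⟩
    have h7 := hpowmem 7 ⟨M, hMI, hM⟩
    have h6 : ∀ t, x 6 t ∈ I := by
      refine hpowmem 6 ?_
      have h6' : x 6 (-1 : F) ∈ I := by
        have := mul_mem (show τ C ∈ I from ⟨C, hCI, rfl⟩) (inv_mem (h7 (-1)))
        rwa [hC, mul_inv_cancel_right] at this
      have := inv_mem h6'
      rwa [show (x 6 (-1 : F))⁻¹ = x 6 1 by simp only [x, sysB2.{u}.xg_inv, _root_.neg_neg]] at this
    have hle : sysB2.{u}.tailU F (chevB2.nroots / 2) ≤ I.map (chevB2.group F).subtype := by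
      rw [Sys.tailU, Subgroup.closure_le]
      rintro y ⟨r, t, h1, h2, rfl⟩
      rw [nroots_eq] at h1 h2
      refine ⟨x r t, ?_, Sys.coe_xg _ _ _⟩
      obtain rfl | rfl | rfl | rfl : r = 4 ∨ r = 5 ∨ r = 6 ∨ r = 7 := by omega
      exacts [h4 t, h5 t, h6 t, h7 t]
    intro g hg
    have := hle (by rw [← sysB2.{u}.posUnipotent_eq]; exact hg)
    obtain ⟨g', hg', hgg⟩ := this
    rwa [Subtype.val_injective hgg] at hg'
  have hle : ⁅(Sys.posG (D := chevB2) F).comap τ, (Sys.posG (D := chevB2) F).comap τ⁆ ≤ K := by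
    rw [Subgroup.commutator_le]
    intro g hg g' hg'
    obtain ⟨y, hy, hye⟩ := hgenU _ hg
    obtain ⟨y', hy', hye'⟩ := hgenU _ hg'
    rw [c.comm_eq hye.symm hye'.symm]
    exact comm_mem_of_gen hAn hBn hCK hy hy'
  have := hKker e (hle hmem) (MonoidHom.mem_ker.1 c.e_mem)
  have ho := c.order
  rw [this, orderOf_one] at ho
  omega

end CfsgLib.Chev.B2Three
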