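import Cfsg.Agent.Chev.Cover.AppsCommon
import Cfsg.Agent.Chev.Cover.CertB2Split
import Cfsg.Agent.Chev.Cover.CertD4Split
import Cfsg.Agent.Chev.Cover.NoCoverB2

/-!
# Covers of prime degree of the groups of type B₂ and D₄
-/

set_option autoImplicit false

namespace CfsgLib.Chev

open Cfsg.Lie

universe u

variable {F : Type u} [Field F] [Finite F] {p : ℕ} [hp : Fact p.Prime] [CharP F p]

theorem noPCover_B2 (hq : 3 ≤ Nat.card F) : NoPCover chevB2 F p := by
  haveI : Fact (Nat.Prime 3) := ⟨Nat.prime_three⟩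
  rcases eq_or_lt_of_le hq with h | h
  · obtain rfl : p = 3 := char_eq_of_card h.symm
    exact B2Three.noPCover h.symm
  by_cases h2 : p = 2
  · subst h2
    exact sysB2.{u}.noPCover_le (d := 2) (by omega) (CharP.cast_eq_zero F 2)
      (fun e => absurd e (by decide)) SplitB2.can_le SplitB2.pairs_le SplitB2.same_two
  · have h5 : 5 ≤ Nat.card F := by
      by_contra h5
      haveI := Fintype.ofFinite F
      have h4 : Nat.card F = 4 := by omega
      have h0 : ((4 : ℕ) : F) = 0 := by
        rw [← h4, Nat.card_eq_fintype_card]; exact Nat.cast_card_eq_zero F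
      have h1 : p ∣ 2 ^ 2 := (CharP.cast_eq_zero_iff F p 4).1 h0
      exact h2 ((Nat.prime_dvd_prime_iff_eq hp.out Nat.prime_two).1 (hp.out.dvd_of_dvd_pow h1))
    exact sysB2.{u}.noPCover_le (d := 0) (by omega) Nat.cast_zero (fun _ => h5)
      SplitB2.can_le SplitB2.pairs_le SplitB2.same_five

theorem noPCover_D4 (hq : 3 ≤ Nat.card F) : NoPCover chevD4 F p := by
  rcases eq_or_lt_of_le hq with h | h
  · exact sysD4.{u}.noPCover_three h.symm SplitD4.can_three SplitD4.pairs_three SplitD4.mono_three
  · exact sysD4.{u}.noPCover_le (d := 0) (by omega) Nat.cast_zero (fun e => absurd e (by decide))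
      SplitD4.can_le SplitD4.pairs_le SplitD4.same_le

end CfsgLib.Chev
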