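import Cfsg.Agent.Chev.Cover.AppsCommon
import Cfsg.Agent.Chev.Cover.CertE6Split
import Cfsg.Agent.Chev.Cover.CertE6Two

/-!
# Covers of prime degree of the groups of type E6
-/

set_option autoImplicit false

namespace CfsgLib.Chev

open Cfsg.Lie

universe u

variable {F : Type u} [Field F] [Finite F] {p : ℕ} [hp : Fact p.Prime] [CharP F p]

theorem noPCover_E6 : NoPCover chevE6 F p := by
  haveI : Fact (Nat.Prime 2) := ⟨Nat.prime_two⟩
  have h1 : 1 < Nat.card F := Finite.one_lt_card
  rcases Nat.lt_or_ge (Nat.card F) 4 with h | h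
  · obtain h | h : Nat.card F = 2 ∨ Nat.card F = 3 := by omega
    · obtain rfl : p = 2 := char_eq_of_card h
      exact sysE6.{u}.noPCover_two h SplitE6.shape_ok SplitE6.comm_base_ok SplitE6.dec_base_ok
    · exact sysE6.{u}.noPCover_three (ex := []) h SplitE6.can_three SplitE6.pairs_three rfl
  · exact sysE6.{u}.noPCover_le (d := 0) (by omega) Nat.cast_zero (fun e => absurd e (by decide))
      SplitE6.can_le SplitE6.pairs_le SplitE6.same_le

end CfsgLib.Chev
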