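import Cfsg.Agent.Chev.Cover.AppsCommon
import Cfsg.Agent.Chev.Cover.CertG2Split
import Cfsg.Agent.Chev.Cover.CertF4Split

/-!
# Covers of prime degree of the groups of type G₂ and F₄
-/

set_option autoImplicit false

namespace CfsgLib.Chev

open Cfsg.Lie

universe u

variable {F : Type u} [Field F] [Finite F] {p : ℕ} [hp : Fact p.Prime] [CharP F p]

theorem noPCover_G2 (hq : 5 ≤ Nat.card F) : NoPCover chevG2 F p :=
  sysG2.{u}.noPCover_le (d := 0) (by omega) Nat.cast_zero (fun _ => hq)
    SplitG2.can_le SplitG2.pairs_le SplitG2.same_five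

theorem noPCover_F4 (hq : 3 ≤ Nat.card F) : NoPCover chevF4 F p := by
  rcases eq_or_lt_of_le hq with h | h
  · exact sysF4.{u}.noPCover_three h.symm SplitF4.can_three SplitF4.pairs_three SplitF4.mono_three
  · exact sysF4.{u}.noPCover_le (d := 0) (by omega) Nat.cast_zero (fun e => absurd e (by decide))
      SplitF4.can_le SplitF4.pairs_le SplitF4.same_le

end CfsgLib.Chev
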