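import Cfsg.Agent.Chev.Cover.Universal

/-!
# Splitting of covers of degree `p` over the unipotent radical
-/

set_option autoImplicit false
set_option linter.style.haveILetI false

namespace CfsgLib.Chev

open Cfsg.Lie Matrix CfsgLib.Schur
open scoped commutatorElement

universe u

/-- A biadditive pairing of two root groups invariant under the torus is trivial. -/
def Vanishes (D : ChevalleyDatum) (F : Type u) [Field F] (r s : ℕ) : Prop :=
  ∀ (A : Type u) [Group A] (B : F → F → A),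
    (∀ t t' v, B (t + t') v = B t v * B t' v) → (∀ t v v', B t (v + v') = B t v * B t v') →
    (∀ i < D.rank, ∀ a : Fˣ, ∀ t v : F,
      B (((a ^ D.cartan i r : Fˣ) : F) * t) (((a ^ D.cartan i s : Fˣ) : F) * v) = B t v) →
    ∀ t v, B t v = 1

namespace Sys

variable {D : ChevalleyDatum} (S : Sys.{u} D) {F : Type u} [Field F]

/-- The torus element `h_i(a)` in the group. -/
def hG (i : ℕ) (a : Fˣ) : D.group F := ⟨S.hU (D.simple i) (a : F), S.wU_mem_group' _⟩

theorem xg_add (r : ℕ) (t v : F) : S.xg r (t + v) = S.xg r t * S.xg r v :=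
  Subtype.ext (S.xU_add r t v).symm

theorem xg_zero (r : ℕ) : S.xg r (0 : F) = 1 := Subtype.ext (S.xU_zero r)

theorem xg_inv (r : ℕ) (t : F) : (S.xg r t)⁻¹ = S.xg r (-t) := Subtype.ext (S.xU_inv r t)

theorem hG_conj {i r : ℕ} (hi : i < D.rank) (hr : r < D.nroots) (a : Fˣ) (t : F) :
    S.hG i a * S.xg r t * (S.hG i a)⁻¹ = S.xg r (((a ^ D.cartan i r : Fˣ) : F) * t) := by
  refine Subtype.ext ?_
  show S.hU (D.simple i) (a : F) * S.xU r t * (S.hU (D.simple i) (a : F))⁻¹ = S.xU r _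
  rw [S.hU_eq_dg (S.simple_lt hi), S.dg_conj_xU _ hr, S.chi_hz_simple hi a hr]

theorem hG_comm {i j : ℕ} (hi : i < D.rank) (hj : j < D.rank) (a b : Fˣ) :
    S.hG i a * S.hG j b = S.hG j b * S.hG i a := by
  refine Subtype.ext ?_
  show S.hU (D.simple i) (a : F) * S.hU (D.simple j) (b : F) = S.hU (D.simple j) (b : F) * S.hU (D.simple i) (a : F)
  rw [S.hU_eq_dg (S.simple_lt hi), S.hU_eq_dg (S.simple_lt hj), ← S.dg_mul, ← S.dg_mul, mul_comm]

/-- The subgroup `U` inside the group. -/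
def posG (F : Type u) [Field F] : Subgroup (D.group F) := (D.posUnipotent F).subgroupOf (D.group F)

/-- Data of a section over the positive root elements. -/
structure Section {Γ : Type u} [Group Γ] (τ : Γ →* D.group F) where
  /-- the lifts -/
  lam : ℕ → F → Γ
  proj : ∀ r < D.nroots, D.nroots / 2 ≤ r → ∀ t, τ (lam r t) = S.xg r t
  add : ∀ r < D.nroots, D.nroots / 2 ≤ r → ∀ t v, lam r (t + v) = lam r t * lam r v

end Sys

namespace Sys.Section

variable {D : ChevalleyDatum} {S : Sys.{u} D} {F : Type u} [Field F] {Γ : Type u} [Group Γ]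
  {τ : Γ →* D.group F} (Λ : S.Section τ)

/-- The subgroup generated by the lifts of index at least `j`. -/
def gen (j : ℕ) : Subgroup Γ :=
  Subgroup.closure {g | ∃ (r : ℕ) (t : F), j ≤ r ∧ r < D.nroots ∧ g = Λ.lam r t}

theorem lam_mem {j r : ℕ} (h : j ≤ r) (hr : r < D.nroots) (t : F) : Λ.lam r t ∈ Λ.gen j :=
  Subgroup.subset_closure ⟨r, t, h, hr, rfl⟩

theorem gen_mono {i j : ℕ} (h : i ≤ j) : Λ.gen j ≤ Λ.gen i :=
  Subgroup.closure_mono fun _ ⟨r, t, h1, h2, e⟩ => ⟨r, t, h.trans h1, h2, e⟩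

theorem lam_zero {r : ℕ} (hr : r < D.nroots) (hp : D.nroots / 2 ≤ r) : Λ.lam r 0 = 1 := by
  have := Λ.add r hr hp 0 0
  rw [add_zero] at this
  exact left_eq_mul.1 this

theorem lam_inv {r : ℕ} (hr : r < D.nroots) (hp : D.nroots / 2 ≤ r) (t : F) :
    (Λ.lam r t)⁻¹ = Λ.lam r (-t) :=
  inv_eq_of_mul_eq_one_right (by rw [← Λ.add r hr hp, add_neg_cancel, Λ.lam_zero hr hp])

/-- The relations between the lifts of index at least `k`. -/
def Rel (k : ℕ) : Prop :=
  ∀ i s, k ≤ i → i < s → s < D.nroots → ∀ t v, ⁅Λ.lam i t, Λ.lam s v⁆ ∈ Λ.gen (s + 1)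

theorem conj_gen {i j : ℕ} (hp : D.nroots / 2 ≤ i) (hij : i < j)
    (h : ∀ r, j ≤ r → r < D.nroots → ∀ t v, ⁅Λ.lam i t, Λ.lam r v⁆ ∈ Λ.gen (r + 1)) (t : F) {g : Γ}
    (hg : g ∈ Λ.gen j) : Λ.lam i t * g * (Λ.lam i t)⁻¹ ∈ Λ.gen j := by
  have hle : Λ.gen j ≤ (Λ.gen j).comap (MulAut.conj (Λ.lam i t)).toMonoidHom := by
    rw [gen, Subgroup.closure_le]
    rintro y ⟨r, v, h1, h2, rfl⟩
    show Λ.lam i t * Λ.lam r v * (Λ.lam i t)⁻¹ ∈ Λ.gen j
    rw [show Λ.lam i t * Λ.lam r v * (Λ.lam i t)⁻¹ = ⁅Λ.lam i t, Λ.lam r v⁆ * Λ.lam r v by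
      simp [commutatorElement_def]]
    exact mul_mem (Λ.gen_mono (by omega) (h r h1 h2 t v)) (Λ.lam_mem h1 h2 v)
  exact hle hg

theorem tail_step {j : ℕ} (hp : D.nroots / 2 ≤ j) (hj : j < D.nroots) (hQ : Λ.Rel j) {g : Γ}
    (hg : g ∈ Λ.gen j) : ∃ t, ∃ y ∈ Λ.gen (j + 1), g = Λ.lam j t * y := by
  have hconj : ∀ (a : F) (y : Γ), y ∈ Λ.gen (j + 1) →
      Λ.lam j a * y * (Λ.lam j a)⁻¹ ∈ Λ.gen (j + 1) := fun a y hy =>
    Λ.conj_gen hp (by omega) (fun r h1 h2 => hQ j r le_rfl (by omega) h2) a hy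
  induction hg using Subgroup.closure_induction with
  | mem y hy =>
    obtain ⟨r, t, h1, h2, rfl⟩ := hy
    rcases h1.eq_or_lt with rfl | h
    · exact ⟨t, 1, one_mem _, by rw [mul_one]⟩
    · exact ⟨0, Λ.lam r t, Λ.lam_mem h h2 t, by rw [Λ.lam_zero hj hp, one_mul]⟩
  | one => exact ⟨0, 1, one_mem _, by rw [Λ.lam_zero hj hp, one_mul]⟩
  | mul x y _ _ hx hy =>
    obtain ⟨a, y₁, hy₁, rfl⟩ := hx
    obtain ⟨b, y₂, hy₂, rfl⟩ := hy
    refine ⟨a + b, Λ.lam j (-b) * y₁ * (Λ.lam j (-b))⁻¹ * y₂, mul_mem (hconj _ _ hy₁) hy₂, ?_⟩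
    rw [← Λ.lam_inv hj hp, Λ.add j hj hp]; group
  | inv x _ hx =>
    obtain ⟨a, y₁, hy₁, rfl⟩ := hx
    refine ⟨-a, Λ.lam j a * y₁⁻¹ * (Λ.lam j a)⁻¹, hconj _ _ (inv_mem hy₁), ?_⟩
    rw [← Λ.lam_inv hj hp]; group

theorem map_gen_mem {j : ℕ} (hp : D.nroots / 2 ≤ j) {g : Γ} (hg : g ∈ Λ.gen j) :
    ((τ g : D.group F) : GL D.Idx F) ∈ S.tailU F j := by
  have hle : Λ.gen j ≤ (S.tailU F j).comap ((D.group F).subtype.comp τ) := by
    rw [gen, Subgroup.closure_le]
    rintro y ⟨r, v, h1, h2, rfl⟩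
    show ((τ (Λ.lam r v) : D.group F) : GL D.Idx F) ∈ S.tailU F j
    rw [Λ.proj r h2 (hp.trans h1) v]
    exact S.xU_mem_tailU h1 h2 v
  exact hle hg

theorem eq_one_of_ker : ∀ (j : ℕ), D.nroots / 2 ≤ j → Λ.Rel j → ∀ g ∈ Λ.gen j, τ g = 1 → g = 1 := by
  intro j hp hQ
  induction hd : D.nroots - j generalizing j with
  | zero =>
    intro g hg _
    have : Λ.gen j = ⊥ := le_bot_iff.1 (by
      rw [gen, Subgroup.closure_le]
      rintro y ⟨r, v, h1, h2, -⟩
      omega)
    rwa [this, Subgroup.mem_bot] at hg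
  | succ d ih =>
    intro g hg h1
    have hj : j < D.nroots := by omega
    obtain ⟨t, y, hy, rfl⟩ := Λ.tail_step hp hj hQ hg
    rw [map_mul, Λ.proj j hj hp] at h1
    have ht : t = 0 := by
      refine S.eq_zero_of_mem_tail hp hj ?_
      have e : S.xU j t = (((τ y : D.group F) : GL D.Idx F))⁻¹ :=
        eq_inv_of_mul_eq_one_left (congrArg Subtype.val h1)
      rw [e]
      exact inv_mem (Λ.map_gen_mem (by omega) hy)
    rw [ht, S.xg_zero, one_mul] at h1
    rw [ht, Λ.lam_zero hj hp, one_mul]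
    exact ih (j + 1) (by omega) (fun i s h h' h'' => hQ i s (by omega) h' h'') (by omega) y hy h1

theorem exists_of_tail {j : ℕ} (hp : D.nroots / 2 ≤ j) {g : GL D.Idx F} (hg : g ∈ S.tailU F j) :
    ∃ y ∈ Λ.gen j, ((τ y : D.group F) : GL D.Idx F) = g := by
  have hle : S.tailU F j ≤ (Λ.gen j).map ((D.group F).subtype.comp τ) := by
    rw [Sys.tailU, Subgroup.closure_le]
    rintro y ⟨r, v, h1, h2, rfl⟩
    exact ⟨Λ.lam r v, Λ.lam_mem h1 h2 v,
      congrArg Subtype.val (Λ.proj r h2 (hp.trans h1) v)⟩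
  exact hle hg

variable {e : Γ} {p : ℕ} (c : PrimeCover τ e p)
include c

/-- Commutators of lifts of root elements lie in the next tail up to the kernel. -/
theorem exists_defect {i s : ℕ} (hp : D.nroots / 2 ≤ i) (his : i < s) (hs : s < D.nroots) (t v : F) :
    ∃ z ∈ τ.ker, z⁻¹ * ⁅Λ.lam i t, Λ.lam s v⁆ ∈ Λ.gen (s + 1) := by
  have hi : i < D.nroots := his.trans hs
  obtain ⟨w, hw, hwe⟩ := S.commutator_mem hi hs hp (hp.trans his.le) t v
  rw [max_eq_right his.le] at hw
  have himg : ((τ ⁅Λ.lam i t, Λ.lam s v⁆ : D.group F) : GL D.Idx F) = S.xU s v * w * (S.xU s v)⁻¹ := by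
    rw [map_commutatorElement, Λ.proj i hi hp, Λ.proj s hs (hp.trans his.le), commutatorElement_def]
    push_cast
    rw [S.coe_xg, S.coe_xg, hwe]
  have hmem : S.xU s v * w * (S.xU s v)⁻¹ ∈ S.tailU F (s + 1) := by
    refine S.conj_tailU (k := s + 1) (by omega) ?_ w hw
    rw [S.posUnipotent_eq]
    exact S.xU_mem_tailU (hp.trans his.le) hs v
  obtain ⟨y, hy, hye⟩ := Λ.exists_of_tail (j := s + 1) (by omega) hmem
  refine ⟨⁅Λ.lam i t, Λ.lam s v⁆ * y⁻¹, ?_, ?_⟩
  · rw [MonoidHom.mem_ker, map_mul, map_inv, mul_inv_eq_one]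
    exact Subtype.ext (himg.trans hye.symm)
  · rwa [_root_.mul_inv_rev, inv_inv, inv_mul_cancel_right]

/-- The relations hold when the pairings vanish. -/
theorem rel_all
    (hequiv : ∀ i < D.rank, ∀ a : Fˣ, ∃ H : Γ, ∀ r < D.nroots, D.nroots / 2 ≤ r → ∀ t,
      H * Λ.lam r t * H⁻¹ = Λ.lam r (((a ^ D.cartan i r : Fˣ) : F) * t))
    (hvan : ∀ i s, D.nroots / 2 ≤ i → i < s → s < D.nroots →
      Vanishes D F i s ∨ ∀ t v, ⁅Λ.lam i t, Λ.lam s v⁆ = 1) :
    Λ.Rel (D.nroots / 2) := by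
  suffices H : ∀ d k, D.nroots - k = d → D.nroots / 2 ≤ k → Λ.Rel k from H _ _ rfl le_rfl
  intro d
  induction d with
  | zero => intro k hk _ i s h1 h2 h3; omega
  | succ d ih =>
    intro k hk hp
    have hQ := ih (k + 1) (by omega) (by omega)
    have inner : ∀ d' s, D.nroots - s = d' → k < s → s < D.nroots → ∀ t v,
        ⁅Λ.lam k t, Λ.lam s v⁆ ∈ Λ.gen (s + 1) := by
      intro d'
      induction d' using Nat.strong_induction_on with
      | _ d' ih' =>
        intro s hd' hks hs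
        have hhi : ∀ r, s + 1 ≤ r → r < D.nroots → ∀ t v, ⁅Λ.lam k t, Λ.lam r v⁆ ∈ Λ.gen (r + 1) :=
          fun r h1 h2 => ih' (D.nroots - r) (by omega) r rfl (by omega) h2
        rcases hvan k s hp hks hs with hV | hV
        swap
        · intro t v; rw [hV]; exact one_mem _
        choose B hBker hBmem using fun t v => Λ.exists_defect c hp hks hs t v
        have huniq : ∀ t v z, z ∈ τ.ker → z⁻¹ * ⁅Λ.lam k t, Λ.lam s v⁆ ∈ Λ.gen (s + 1) → B t v = z := by
          intro t v z hz hmem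
          have h1 : z⁻¹ * B t v ∈ Λ.gen (s + 1) := by
            have := mul_mem hmem (inv_mem (hBmem t v))
            rwa [_root_.mul_inv_rev, inv_inv, mul_assoc, mul_inv_cancel_left] at this
          have h2 := Λ.eq_one_of_ker (s + 1) (by omega)
            (fun i r h h' h'' => hQ i r (by omega) h' h'') _ h1
            (MonoidHom.mem_ker.1 (mul_mem (inv_mem hz) (hBker t v)))
          exact (inv_mul_eq_one.1 h2).symm
        have hck : ∀ a, ∀ y ∈ Λ.gen (s + 1), Λ.lam k a * y * (Λ.lam k a)⁻¹ ∈ Λ.gen (s + 1) :=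
          fun a y hy => Λ.conj_gen hp (by omega) hhi a hy
        have hcs : ∀ a, ∀ y ∈ Λ.gen (s + 1), Λ.lam s a * y * (Λ.lam s a)⁻¹ ∈ Λ.gen (s + 1) :=
          fun a y hy => Λ.conj_gen (by omega) (by omega)
            (fun r h1 h2 => hQ s r (by omega) (by omega) h2) a hy
        have hB : ∀ t v, B t v = 1 := by
          refine hV Γ B (fun t t' v => huniq _ _ _ (mul_mem (hBker t v) (hBker t' v)) ?_)
            (fun t v v' => huniq _ _ _ (mul_mem (hBker t v) (hBker t v')) ?_) ?_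
          · rw [Λ.add k (by omega) hp,
              show ⁅Λ.lam k t * Λ.lam k t', Λ.lam s v⁆ =
                Λ.lam k t * ⁅Λ.lam k t', Λ.lam s v⁆ * (Λ.lam k t)⁻¹ * ⁅Λ.lam k t, Λ.lam s v⁆ by
                simp only [commutatorElement_def]; group]
            have n1 := hck t _ (hBmem t' v)
            rw [← mul_assoc (Λ.lam k t), c.comm (Λ.lam k t) (inv_mem (hBker t' v))] at n1
            have n2 := mul_mem n1 (hBmem t v)
            have e1 : ∀ w, w * (B t v)⁻¹ = (B t v)⁻¹ * w := fun w => c.comm w (inv_mem (hBker t v))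
            convert n2 using 1
            have e2 : ∀ a b, a * ((B t v)⁻¹ * b) = (B t v)⁻¹ * (a * b) := fun a b => by
              rw [← mul_assoc, e1, mul_assoc]
            simp only [_root_.mul_inv_rev, mul_assoc, e2]
          · rw [Λ.add s hs (by omega),
              show ⁅Λ.lam k t, Λ.lam s v * Λ.lam s v'⁆ =
                ⁅Λ.lam k t, Λ.lam s v⁆ * (Λ.lam s v * ⁅Λ.lam k t, Λ.lam s v'⁆ * (Λ.lam s v)⁻¹) by
                simp only [commutatorElement_def]; group]
            have n1 := hcs v _ (hBmem t v')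
            rw [← mul_assoc (Λ.lam s v), c.comm (Λ.lam s v) (inv_mem (hBker t v'))] at n1
            have n2 := mul_mem (hBmem t v) n1
            have e1 : ∀ w, w * (B t v')⁻¹ = (B t v')⁻¹ * w := fun w => c.comm w (inv_mem (hBker t v'))
            convert n2 using 1
            have e2 : ∀ a b, a * ((B t v')⁻¹ * b) = (B t v')⁻¹ * (a * b) := fun a b => by
              rw [← mul_assoc, e1, mul_assoc]
            simp only [_root_.mul_inv_rev, mul_assoc, e2]
          · intro j hj a t v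
            obtain ⟨H, hH⟩ := hequiv j hj a
            refine huniq _ _ _ (hBker t v) ?_
            have hHgen : ∀ y ∈ Λ.gen (s + 1), H * y * H⁻¹ ∈ Λ.gen (s + 1) := by
              intro y hy
              have hle : Λ.gen (s + 1) ≤ (Λ.gen (s + 1)).comap (MulAut.conj H).toMonoidHom := by
                rw [gen, Subgroup.closure_le]
                rintro y ⟨r, b, h1, h2, rfl⟩
                show H * Λ.lam r b * H⁻¹ ∈ Λ.gen (s + 1)
                rw [hH r h2 (by omega) b]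
                exact Λ.lam_mem h1 h2 _
              exact hle hy
            have n1 := hHgen _ (hBmem t v)
            rwa [← mul_assoc, c.comm H (inv_mem (hBker t v)),
              show (B t v)⁻¹ * H * ⁅Λ.lam k t, Λ.lam s v⁆ * H⁻¹ =
                (B t v)⁻¹ * ⁅H * Λ.lam k t * H⁻¹, H * Λ.lam s v * H⁻¹⁆ by
                simp only [commutatorElement_def]; group, hH k (by omega) hp,
              hH s hs (by omega)] at n1
        intro t v
        have := hBmem t v
        rwa [hB, inv_one, one_mul] at this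
    intro i s h1 h2 h3
    rcases h1.eq_or_lt with rfl | h
    · exact inner _ s rfl h2 h3
    · exact hQ i s h h2 h3

/-- With all relations, the kernel misses the commutator subgroup of the inverse image of `U`. -/
theorem not_mem_commutator [hp : Fact p.Prime] (hQ : Λ.Rel (D.nroots / 2)) :
    e ∉ ⁅(Sys.posG (D := D) F).comap τ, (Sys.posG (D := D) F).comap τ⁆ := by
  intro he
  have hdec : ∀ g ∈ (Sys.posG (D := D) F).comap τ, ∃ y ∈ Λ.gen (D.nroots / 2), ∃ z ∈ τ.ker, g = y * z := by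
    intro g hg
    have hg' : ((τ g : D.group F) : GL D.Idx F) ∈ S.tailU F (D.nroots / 2) := by
      rw [← S.posUnipotent_eq]; exact hg
    obtain ⟨y, hy, hye⟩ := Λ.exists_of_tail le_rfl hg'
    obtain ⟨z, hz, hzz⟩ := c.exists_of_map_eq (show τ g = τ y from Subtype.ext hye.symm)
    exact ⟨y, hy, z, hz, hzz⟩
  have hle : ⁅(Sys.posG (D := D) F).comap τ, (Sys.posG (D := D) F).comap τ⁆ ≤ Λ.gen (D.nroots / 2) := by
    rw [Subgroup.commutator_le]
    intro g hg g' hg'
    obtain ⟨y, hy, z, hz, rfl⟩ := hdec g hg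
    obtain ⟨y', hy', z', hz', rfl⟩ := hdec g' hg'
    rw [c.comm_eq (x' := y) (y' := y') (by rw [map_mul, MonoidHom.mem_ker.1 hz, mul_one])
      (by rw [map_mul, MonoidHom.mem_ker.1 hz', mul_one]), commutatorElement_def]
    exact mul_mem (mul_mem (mul_mem hy hy') (inv_mem hy)) (inv_mem hy')
  have h1 := Λ.eq_one_of_ker _ le_rfl hQ e (hle he) (MonoidHom.mem_ker.1 c.e_mem)
  have := c.order
  rw [h1, orderOf_one] at this
  exact hp.out.ne_one this.symm

end Sys.Section

end CfsgLib.Chev
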