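import Cfsg.Agent.Chev.Cover.SplitTorus
import Cfsg.Agent.Chev.BN

/-!
# Checks from which the splitting follows
-/

set_option autoImplicit false
set_option linter.style.haveILetI false

namespace CfsgLib.Chev

open Cfsg.Lie Matrix CfsgLib.Schur

universe u

/-- Exponents of absolute value `1` to `n`. -/
def goodLe (n : ℕ) (m : ℤ) : Bool := decide (m ≠ 0) && decide (m.natAbs ≤ n)
/-- The exponent zero. -/
def nullZero (m : ℤ) : Bool := decide (m = 0)
/-- Odd exponents. -/
def goodOdd (m : ℤ) : Bool := decide (m % 2 ≠ 0)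
/-- Even exponents. -/
def nullEven (m : ℤ) : Bool := decide (m % 2 = 0)

theorem expPred_le (F : Type u) [Field F] [Finite F] {n : ℕ} (h : n + 2 ≤ Nat.card F) :
    ExpPred F (goodLe n) nullZero := by
  refine ⟨fun m hm => ?_, fun m hm k => ?_⟩
  · simp only [goodLe, Bool.and_eq_true, decide_eq_true_eq] at hm
    obtain ⟨g, hg⟩ := IsCyclic.exists_generator (α := Fˣ)
    refine ⟨g, fun e => ?_⟩
    have h1 : (orderOf g : ℤ) ∣ m := orderOf_dvd_iff_zpow_eq_one.2 e
    rw [orderOf_eq_card_of_forall_mem_zpowers hg, Nat.card_units] at h1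
    have h2 := Nat.le_of_dvd (Int.natAbs_pos.2 hm.1) (Int.natCast_dvd.1 h1)
    omega
  · simp only [nullZero, decide_eq_true_eq] at hm
    rw [hm, zpow_zero]

theorem expPred_three (F : Type u) [Field F] [Finite F] (h : Nat.card F = 3) :
    ExpPred F goodOdd nullEven := by
  have hc : Nat.card Fˣ = 2 := by rw [Nat.card_units, h]
  refine ⟨fun m hm => ?_, fun m hm k => ?_⟩
  · simp only [goodOdd, decide_eq_true_eq] at hm
    obtain ⟨g, hg⟩ := IsCyclic.exists_generator (α := Fˣ)
    refine ⟨g, fun e => ?_⟩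
    have h1 : (orderOf g : ℤ) ∣ m := orderOf_dvd_iff_zpow_eq_one.2 e
    rw [orderOf_eq_card_of_forall_mem_zpowers hg, hc] at h1
    obtain ⟨j, rfl⟩ := h1
    omega
  · simp only [nullEven, decide_eq_true_eq] at hm
    obtain ⟨j, rfl⟩ := Int.dvd_of_emod_eq_zero hm
    have h2 : k ^ (2 : ℕ) = 1 := by rw [← hc]; exact pow_card_eq_one'
    rw [_root_.zpow_mul]
    norm_cast
    rw [h2, _root_.one_zpow]

/-- Every positive root moves under some fundamental coroot. -/
def canChk (D : ChevalleyDatum) (good : ℤ → Bool) : Bool :=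
  (List.range (D.nroots / 2)).all fun j =>
    (List.range D.rank).any fun i => good (D.cartan i (D.nroots / 2 + j))

/-- All pairs of positive roots are separated, up to a list of exceptions. -/
def pairsChk (D : ChevalleyDatum) (good null : ℤ → Bool) (ex : List (ℕ × ℕ)) : Bool :=
  (List.range (D.nroots / 2)).all fun j => (List.range (D.nroots / 2)).all fun l =>
    decide (l ≤ j) || decide ((D.nroots / 2 + j, D.nroots / 2 + l) ∈ ex) ||
      sepChk D good null (D.nroots / 2 + j) (D.nroots / 2 + l)

/-- Witnesses that the root groups of the positive roots commute with themselves. -/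
def sameChk (D : ChevalleyDatum) (good null : ℤ → Bool) (d : ℕ) (scale : Bool)
    (W : List (ℕ × ℕ × ℕ)) : Bool :=
  (List.range (D.nroots / 2)).all fun j =>
    (scale && (List.range D.rank).any fun i =>
        decide ((D.cartan i (D.nroots / 2 + j)).natAbs = 1) || (List.range D.rank).any fun i' =>
          decide ((D.cartan i (D.nroots / 2 + j) + D.cartan i' (D.nroots / 2 + j)).natAbs = 1)) ||
      Sys.decChk D good null d (D.nroots / 2 + j) (D.nroots / 2 + j)
        (W.getD j (0, 0, 0)).1 (W.getD j (0, 0, 0)).2.1 (W.getD j (0, 0, 0)).2.2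

namespace Sys

variable {D : ChevalleyDatum} (S : Sys.{u} D) {F : Type u} [Field F] [Finite F] {p : ℕ}
  [hp : Fact p.Prime] [CharP F p]

omit hp [CharP F p] in
theorem same_of_chk {good null : ℤ → Bool} (hE : ExpPred F good null) {d : ℕ} (hd : (d : F) = 0)
    {scale : Bool} (hsc : scale = true → 5 ≤ Nat.card F) {W : List (ℕ × ℕ × ℕ)}
    (h : sameChk D good null d scale W = true) {r : ℕ} (h1 : D.nroots / 2 ≤ r) (h2 : r < D.nroots) :
    S.RootComm (F := F) p r r := by
  simp only [sameChk, List.all_eq_true, List.mem_range] at h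
  obtain ⟨j, rfl⟩ : ∃ j, r = D.nroots / 2 + j := ⟨r - D.nroots / 2, by omega⟩
  have hn := S.even_nroots
  have hj := h j (by omega)
  simp only [Bool.or_eq_true, Bool.and_eq_true, List.any_eq_true, List.mem_range,
    decide_eq_true_eq] at hj
  rcases hj with ⟨hs, i, hi, ha | ⟨i', hi', ha⟩⟩ | hj
  · exact S.rootComm_of_vanishes h2 h2
      (fun t v => by rw [← S.xg_add, ← S.xg_add, add_comm t v]) (vanishes_scale (hsc hs) hi ha)
  · exact S.rootComm_of_vanishes h2 h2
      (fun t v => by rw [← S.xg_add, ← S.xg_add, add_comm t v]) (vanishes_scale₂ (hsc hs) hi hi' ha)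
  · exact S.rootComm_of_dec hd hE h2 hj

theorem noPCover_of_chk {good null : ℤ → Bool} (hE : ExpPred F good null)
    (hidx : ¬ p ∣ (Sys.posG (D := D) F).index)
    (hsame : ∀ r, D.nroots / 2 ≤ r → r < D.nroots → S.RootComm (F := F) p r r)
    (hc : canChk D good = true) {ex : List (ℕ × ℕ)} (hp2 : pairsChk D good null ex = true)
    (hex : ∀ x ∈ ex, x.1 < D.nroots → x.2 < D.nroots → S.RootComm (F := F) p x.1 x.2) :
    NoPCover D F p := by
  have hn := S.even_nroots
  refine S.noPCover_torus hidx hsame (fun r h1 h2 => ?_) fun r s h1 h2 h3 => ?_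
  · simp only [canChk, List.all_eq_true, List.any_eq_true, List.mem_range] at hc
    obtain ⟨i, hi, hg⟩ := hc (r - D.nroots / 2) (by omega)
    rw [show D.nroots / 2 + (r - D.nroots / 2) = r by omega] at hg
    exact ⟨i, hi, hE.hgood _ hg⟩
  · simp only [pairsChk, List.all_eq_true, List.mem_range, Bool.or_eq_true, decide_eq_true_eq] at hp2
    have h := hp2 (r - D.nroots / 2) (by omega) (s - D.nroots / 2) (by omega)
    rw [show D.nroots / 2 + (r - D.nroots / 2) = r by omega,
      show D.nroots / 2 + (s - D.nroots / 2) = s by omega] at h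
    rcases h with (h | h) | h
    · omega
    · exact Or.inr (hex _ h (by show r < _; omega) h3)
    · exact Or.inl (vanishes_of_sep hE h)

end Sys

end CfsgLib.Chev
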