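import Cfsg.Agent.Chev.Cover.SplitTwo
import Cfsg.Agent.Chev.SoundLink

/-!
# The checks for simply laced types over the field with two elements, on tables

All chains have length one, so a commutator has the single term read off from the table.
-/

set_option autoImplicit false
set_option linter.style.haveILetI false

namespace CfsgLib.Chev

open Cfsg.Lie

universe u

/-- The first term of a chain, as a commutator term. -/
def firstTerm : List (ℕ × ℤ) → List (ℕ × ℤ × ℕ × ℕ)
  | [] => []
  | x :: _ => [(x.1, x.2, 1, 1)]

/-- All chains have length one, with a unit coefficient, and can be reversed. -/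
noncomputable def rowsChk (T : Tbl) : Bool :=
  (List.range T.n).all fun r => (T.rows.get r).all fun e =>
    match e.2 with
    | [] => true
    | [x] => decide (x.1 < T.n) && decide (x.2.natAbs = 1) &&
        decide (((T.entry (T.negAt r) x.1)[0]?).map Prod.fst = some e.1)
    | _ => false

/-- Commutator terms read on a table. -/
noncomputable def ctT (T : Tbl) (D : ChevalleyDatum) (r s : ℕ) : List (ℕ × ℤ × ℕ × ℕ) :=
  if r < T.n ∧ s < T.n then firstTerm (T.entry r s) else D.commTerms r s

/-- Chain roots read on a table. -/
noncomputable def crT (T : Tbl) (D : ChevalleyDatum) (r s i : ℕ) : Option ℕ :=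
  if r < T.n then T.chainRootAt r s i else D.chainRoot r s i

/-- Negatives read on a table. -/
noncomputable def ngT (T : Tbl) (D : ChevalleyDatum) (r : ℕ) : ℕ :=
  if r < T.n then T.negAt r else D.neg r

section generic

variable (n rk : ℕ) (simple : ℕ → ℕ) (ng : ℕ → ℕ) (ct : ℕ → ℕ → List (ℕ × ℤ × ℕ × ℕ))
  (cr : ℕ → ℕ → ℕ → Option ℕ) (cart : ℕ → ℕ → ℤ)

/-- `Sys.commChk` with its functions as parameters. -/
def commChkG (d r a : ℕ) : Bool :=
  decide (a ≠ r) && decide (a ≠ ng r) &&
    (ct r a).all fun c => decide (c.1 < n) && decide ((d : ℤ) ∣ c.2.1)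

/-- `Sys.decChk` with its functions as parameters. -/
def decChkG (sep : ℕ → ℕ → Bool) (d r s a b k : ℕ) : Bool :=
  decide (a < n) && decide (b < n) && decide (b ≠ a) && decide (b ≠ ng a) &&
    commChkG n ng ct d r a && commChkG n ng ct d r b &&
    match (ct a b)[k]? with
    | none => false
    | some c => decide (c.1 = s) && decide (c.2.1.natAbs = 1) && decide (c.2.2.1 = 1) &&
        ((ct a b).take k ++ (ct a b).drop (k + 1)).all fun c' =>
          decide (c'.1 < n) && commChkG n ng ct d r c'.1 && sep r c'.1

/-- `commBaseChk` with its functions as parameters. -/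
def commBaseG (sep : ℕ → ℕ → Bool) : Bool :=
  (List.range rk).all fun i => (List.range n).all fun s =>
    decide (s = ng (simple i)) ||
      (decide (s ≠ simple i) && !(ct (simple i) s).isEmpty) ||
      (List.range n).any fun a =>
        match cr (ng a) s 1 with
        | none => false
        | some b => decChkG n ng ct sep 0 (simple i) s a b 0

/-- `emptyPair` with its functions as parameters. -/
def emptyPairG (a b : ℕ) : Bool :=
  decide (b ≠ a) && decide (b ≠ ng a) && (ct a b).isEmpty

/-- `decPair` with its functions as parameters. -/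
def decPairG (s a b : ℕ) : Bool :=
  decide (a < n) && decide (b < n) && decide (b ≠ a) && decide (b ≠ ng a) &&
    match ct a b with
    | [c] => decide (c.1 = s)
    | _ => false

/-- `hwChk` with its functions as parameters. -/
def hwG (s a b c d : ℕ) : Bool :=
  match cr (ng c) a 1 with
  | none => false
  | some e => decPairG n ng ct a c e && decPairG n ng ct d e b && decPairG n ng ct s a b &&
      decPairG n ng ct s c d &&
      emptyPairG ng ct c b && emptyPairG ng ct a d && emptyPairG ng ct d s

/-- `decBaseChk` with its functions as parameters. -/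
def decBaseG : Bool :=
  (List.range rk).all fun i =>
    let L := (List.range n).filterMap fun a => (cr (ng a) (simple i) 1).map fun b => (a, b)
    let L' := L.filter fun x => decPairG n ng ct (simple i) x.1 x.2
    !L'.isEmpty && (L'.all fun x => emptyPairG ng ct x.1 (simple i)) && (L'.take 1).all fun x =>
      L'.all fun y =>
        decide (y = x) || decide (y = (x.2, x.1)) || hwG n ng ct cr (simple i) x.1 x.2 y.1 y.2 ||
          hwG n ng ct cr (simple i) x.2 x.1 y.1 y.2 || hwG n ng ct cr (simple i) x.1 x.2 y.2 y.1 ||
          hwG n ng ct cr (simple i) x.2 x.1 y.2 y.1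

end generic

theorem commBaseChk_eq (D : ChevalleyDatum) :
    commBaseChk D = commBaseG D.nroots D.rank D.simple D.neg D.commTerms D.chainRoot
      (fun r s => sepChk D noExp noExp r s) := rfl

theorem decBaseChk_eq (D : ChevalleyDatum) :
    decBaseChk D = decBaseG D.nroots D.rank D.simple D.neg D.commTerms D.chainRoot := rfl

variable {T : Tbl} {D : ChevalleyDatum}

theorem rows_spec (h : rowsChk T = true) {r s : ℕ} (hr : r < T.n) :
    T.entry r s = [] ∨ ∃ x, T.entry r s = [x] ∧ x.1 < T.n ∧ x.2.natAbs = 1 ∧
      ((T.entry (T.negAt r) x.1)[0]?).map Prod.fst = some s := by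
  simp only [rowsChk, List.all_eq_true, List.mem_range] at h
  by_cases he : T.entry r s = []
  · exact Or.inl he
  have := h r hr _ (assoc_mem _ _ he)
  split at this
  · rename_i hx; exact absurd hx he
  · rename_i x hx
    simp only [Bool.and_eq_true, decide_eq_true_eq] at this
    exact Or.inr ⟨x, hx, this.1.1, this.1.2, this.2⟩
  · exact absurd this Bool.false_ne_true

section linked

variable (hL : T.Linked D) (hrows : rowsChk T = true)
include hL hrows

theorem chainRoot_short {r s i : ℕ} (hr : r < T.n) (hi : 2 ≤ i) : D.chainRoot r s i = none := by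
  rw [ChevalleyDatum.chainRoot, Tbl.entryd hL hr]
  rcases rows_spec hrows (s := s) hr with e | ⟨x, e, -⟩ <;> rw [e] <;>
    · obtain ⟨j, rfl⟩ : ∃ j, i = j + 2 := ⟨i - 2, by omega⟩
      simp

theorem commTerms_eq_first {r s : ℕ} (hr : r < T.n) (hs : s < T.n) :
    D.commTerms r s = firstTerm (T.entry r s) := by
  have k1 := fun i hi => chainRoot_short hL hrows (r := r) (s := s) (i := i) hr hi
  have k2 := fun i hi => chainRoot_short hL hrows (r := s) (s := r) (i := i) hs hi
  simp only [ChevalleyDatum.commTerms, k1 2 le_rfl, k1 3 (by omega), k2 2 le_rfl, k2 3 (by omega),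
    Option.bind_none, List.filterMap_cons, List.filterMap_nil, Option.map_none]
  rw [ChevalleyDatum.chainRoot, ChevalleyDatum.chainM, Tbl.entryd hL hr]
  rcases rows_spec hrows (s := s) hr with e | ⟨x, e, -⟩ <;> rw [e] <;> simp [firstTerm]

theorem ctT_eq : ctT T D = D.commTerms := by
  funext r s
  rw [ctT]
  split
  · rename_i h; exact (commTerms_eq_first hL hrows h.1 h.2).symm
  · rfl

omit hrows in
theorem crT_eq : crT T D = D.chainRoot := by
  funext r s i
  rw [crT]
  split
  · rename_i h; exact (Tbl.chainRootd hL h s i).symm
  · rfl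

omit hrows in
theorem ngT_eq : ngT T D = D.neg := by
  funext r
  rw [ngT]
  split
  · rename_i h; exact (Tbl.negd hL h).symm
  · rfl

theorem shape_of_rows : shapeChk D = true := by
  have hn : D.nroots = T.n := hL.nroots
  simp only [shapeChk, List.all_eq_true, List.mem_range]
  intro a ha b hb
  rw [hn] at ha hb
  rw [commTerms_eq_first hL hrows ha hb]
  rcases rows_spec hrows (s := b) ha with e | ⟨x, e, h1, h2, h3⟩ <;> rw [e]
  · simp [firstTerm]
  · have hp : partner D x.1 a = some b := by
      rw [partner, Tbl.negd hL ha, ChevalleyDatum.chainRoot,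
        Tbl.entryd hL (by simp only [Tbl.negAt]; omega)]
      exact h3
    simp [firstTerm, hn, h1, h2, hp]

theorem commBase_of_tbl
    (h : commBaseG D.nroots D.rank D.simple (ngT T D) (ctT T D) (crT T D)
      (fun r s => sepChk D noExp noExp r s) = true) : commBaseChk D = true := by
  rw [commBaseChk_eq, ← ngT_eq hL, ← ctT_eq hL hrows, ← crT_eq hL]
  exact h

theorem decBase_of_tbl
    (h : decBaseG D.nroots D.rank D.simple (ngT T D) (ctT T D) (crT T D) = true) :
    decBaseChk D = true := by
  rw [decBaseChk_eq, ← ngT_eq hL, ← ctT_eq hL hrows, ← crT_eq hL]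
  exact h

end linked

end CfsgLib.Chev
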