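import Cfsg.Agent.Chev.Cover.Split

/-!
# Splitting of covers of degree `p` by means of the torus
-/

set_option autoImplicit false
set_option linter.style.haveILetI false
set_option linter.unusedSectionVars false

namespace CfsgLib.Chev

open Cfsg.Lie Matrix CfsgLib.Schur
open scoped commutatorElement

universe u

/-! ### Vanishing criteria -/

/-- Some pair of fundamental coroots separates two roots, for the predicates `good`, `null` on exponents. -/
def sepChk (D : ChevalleyDatum) (good null : ℤ → Bool) (r s : ℕ) : Bool :=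
  (List.range D.rank).any fun i =>
    (null (D.cartan i r) && good (D.cartan i s)) || (null (D.cartan i s) && good (D.cartan i r)) ||
      (List.range D.rank).any fun j => good (D.cartan j r * D.cartan i s - D.cartan i r * D.cartan j s)

/-- The exponents accepted by `good` move some unit, those accepted by `null` fix all units. -/
structure ExpPred (F : Type u) [Field F] (good null : ℤ → Bool) : Prop where
  hgood : ∀ m, good m = true → ∃ k : Fˣ, k ^ m ≠ 1
  hnull : ∀ m, null m = true → ∀ k : Fˣ, k ^ m = 1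

section vanishing

variable {F : Type u} [Field F] {A : Type u} [Group A] {B : F → F → A}
  (hl : ∀ t t' v, B (t + t') v = B t v * B t' v) (hr : ∀ t v v', B t (v + v') = B t v * B t v')

include hr in
theorem pair_fix_right {c : F} (hc : c ≠ 1) (h : ∀ t v, B t (c * v) = B t v) (t v : F) : B t v = 1 := by
  have h1 := h t (v / (c - 1))
  rw [show c * (v / (c - 1)) = v + v / (c - 1) by
    field_simp [sub_ne_zero.2 hc]; ring, hr] at h1
  exact mul_eq_right.1 h1

include hl in
theorem pair_fix_left {c : F} (hc : c ≠ 1) (h : ∀ t v, B (c * t) v = B t v) (t v : F) : B t v = 1 := by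
  have h1 := h (t / (c - 1)) v
  rw [show c * (t / (c - 1)) = t + t / (c - 1) by
    field_simp [sub_ne_zero.2 hc]; ring, hl] at h1
  exact mul_eq_right.1 h1

include hl hr in
/-- A pairing invariant under all scalars vanishes unless the field is very small. -/
theorem pair_scale (h : ∀ k : Fˣ, ∀ t v, B ((k : F) * t) ((k : F) * v) = B t v)
    {k : F} (hk : k ≠ 0) (hk1 : k + 1 ≠ 0) (hk2 : k ^ 2 + k + 1 ≠ 0) (t v : F) : B t v = 1 := by
  have hk' : ∀ l : F, l ≠ 0 → ∀ t v, B (l * t) v = B t (l⁻¹ * v) := fun l hl0 t v => by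
    have := h (Units.mk0 l hl0) t (l⁻¹ * v)
    simpa [mul_inv_cancel_left₀ hl0] using this
  set δ := k⁻¹ + 1 - (k + 1)⁻¹ with hδ
  have hδ0 : δ ≠ 0 := fun h0 => hk2 (by
    rw [hδ] at h0
    field_simp at h0
    linear_combination h0)
  have key : ∀ z, B t (δ * z) = 1 := fun z => by
    have h1 : B ((k + 1) * t) z = B (k * t) z * B t z := by rw [add_mul, one_mul, hl]
    rw [hk' _ hk1, hk' _ hk, ← hr, show k⁻¹ * z + z = δ * z + (k + 1)⁻¹ * z by rw [hδ]; ring, hr] at h1
    exact right_eq_mul.1 h1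
  rw [← mul_inv_cancel_left₀ hδ0 v]
  exact key _

end vanishing

theorem exists_scale_elt (F : Type u) [Field F] [Finite F] (h5 : 5 ≤ Nat.card F) :
    ∃ k : F, k ≠ 0 ∧ k + 1 ≠ 0 ∧ k ^ 2 + k + 1 ≠ 0 := by
  classical
  haveI := Fintype.ofFinite F
  let P : Polynomial F := Polynomial.X ^ 2 + Polynomial.X + 1
  have hP : P ≠ 0 := fun e => by simpa [P] using congrArg (Polynomial.eval 0) e
  have hd : P.natDegree ≤ 2 := by simp only [P]; compute_degree
  have hc : (({0, -1} : Finset F) ∪ P.roots.toFinset).card < (Finset.univ : Finset F).card := by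
    refine lt_of_le_of_lt (Finset.card_union_le _ _) ?_
    have h1 := (Multiset.toFinset_card_le P.roots).trans (Polynomial.card_roots' P)
    have h2 : ({0, -1} : Finset F).card ≤ 2 := Finset.card_le_two
    rw [Finset.card_univ, ← Nat.card_eq_fintype_card]
    omega
  obtain ⟨k, -, hk⟩ := Finset.exists_mem_notMem_of_card_lt_card hc
  simp only [Finset.mem_union, Finset.mem_insert, Finset.mem_singleton, Multiset.mem_toFinset,
    not_or] at hk
  refine ⟨k, hk.1.1, fun e => hk.1.2 (eq_neg_of_add_eq_zero_left e), fun e => hk.2 ?_⟩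
  rw [Polynomial.mem_roots hP, Polynomial.IsRoot.def]
  simpa [P] using e

theorem vanishes_of_sep {D : ChevalleyDatum} {F : Type u} [Field F] {good null : ℤ → Bool}
    (hE : ExpPred F good null) {r s : ℕ} (h : sepChk D good null r s = true) : Vanishes D F r s := by
  intro A _ B hl hr hinv
  simp only [sepChk, List.any_eq_true, List.mem_range, Bool.or_eq_true, Bool.and_eq_true] at h
  obtain ⟨i, hi, (⟨h1, h2⟩ | ⟨h1, h2⟩) | ⟨j, hj, h1⟩⟩ := h
  · obtain ⟨k, hk⟩ := hE.hgood _ h2
    refine pair_fix_right hr (c := ((k ^ D.cartan i s : Fˣ) : F)) (fun e => hk (Units.ext e)) fun t v => ?_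
    have := hinv i hi k t v
    rwa [hE.hnull _ h1 k, Units.val_one, one_mul] at this
  · obtain ⟨k, hk⟩ := hE.hgood _ h2
    refine pair_fix_left hl (c := ((k ^ D.cartan i r : Fˣ) : F)) (fun e => hk (Units.ext e)) fun t v => ?_
    have := hinv i hi k t v
    rwa [hE.hnull _ h1 k, Units.val_one, one_mul] at this
  · obtain ⟨k, hk⟩ := hE.hgood _ h1
    refine pair_fix_right hr
      (c := ((k ^ (D.cartan j r * D.cartan i s - D.cartan i r * D.cartan j s) : Fˣ) : F))
      (fun e => hk (Units.ext e)) fun t v => ?_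
    have e1 := hinv i hi (k ^ D.cartan j r)
      (((k ^ D.cartan i r) ^ (-D.cartan j r) : Fˣ) * t) (((k ^ (-D.cartan i r)) ^ D.cartan j s : Fˣ) * v)
    have e2 := hinv j hj (k ^ (-D.cartan i r)) t v
    rw [← mul_assoc, ← mul_assoc, ← Units.val_mul, ← Units.val_mul, ← _root_.zpow_mul, ← _root_.zpow_mul,
      ← _root_.zpow_add, ← _root_.zpow_mul, ← _root_.zpow_mul, ← _root_.zpow_add] at e1
    rw [← _root_.zpow_mul, ← _root_.zpow_mul] at e2
    rw [show D.cartan j r * D.cartan i r + D.cartan i r * -D.cartan j r = 0 by ring, zpow_zero,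
      Units.val_one, one_mul,
      show D.cartan j r * D.cartan i s + -D.cartan i r * D.cartan j s =
        D.cartan j r * D.cartan i s - D.cartan i r * D.cartan j s by ring] at e1
    rw [e1, show D.cartan i r * -D.cartan j r = -D.cartan i r * D.cartan j r by ring, e2]

theorem vanishes_scale {D : ChevalleyDatum} {F : Type u} [Field F] [Finite F] (h5 : 5 ≤ Nat.card F)
    {r i : ℕ} (hi : i < D.rank) (h : (D.cartan i r).natAbs = 1) : Vanishes D F r r := by
  intro A _ B hl hr hinv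
  obtain ⟨k, hk, hk1, hk2⟩ := exists_scale_elt F h5
  refine pair_scale hl hr (fun l t v => ?_) hk hk1 hk2
  rcases Int.natAbs_eq (D.cartan i r) with e | e <;> rw [h, Nat.cast_one] at e
  · have := hinv i hi l t v
    rwa [e, zpow_one] at this
  · have := hinv i hi l⁻¹ t v
    rwa [e, _root_.zpow_neg, zpow_one, inv_inv] at this

theorem vanishes_scale₂ {D : ChevalleyDatum} {F : Type u} [Field F] [Finite F] (h5 : 5 ≤ Nat.card F)
    {r i j : ℕ} (hi : i < D.rank) (hj : j < D.rank)
    (h : (D.cartan i r + D.cartan j r).natAbs = 1) : Vanishes D F r r := by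
  intro A _ B hl hr hinv
  obtain ⟨k, hk, hk1, hk2⟩ := exists_scale_elt F h5
  refine pair_scale hl hr (fun l t v => ?_) hk hk1 hk2
  obtain ⟨l', hl'⟩ : ∃ l' : Fˣ, l' ^ (D.cartan i r + D.cartan j r) = l := by
    rcases Int.natAbs_eq (D.cartan i r + D.cartan j r) with e | e <;> rw [h, Nat.cast_one] at e
    · exact ⟨l, by rw [e, zpow_one]⟩
    · exact ⟨l⁻¹, by rw [e, _root_.zpow_neg, zpow_one, inv_inv]⟩
  have e1 := hinv i hi l' (((l' ^ D.cartan j r : Fˣ) : F) * t) (((l' ^ D.cartan j r : Fˣ) : F) * v)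
  rw [← mul_assoc, ← mul_assoc, ← Units.val_mul, ← _root_.zpow_add, hl', hinv j hj l' t v] at e1
  exact e1

namespace Sys

variable {D : ChevalleyDatum} (S : Sys.{u} D) {F : Type u} [Field F] {p : ℕ}

/-- Lifts of two root groups commute in every cover of degree `p`. -/
def RootComm (p r s : ℕ) : Prop :=
  ∀ (Δ : Type u) [Group Δ] (τ : Δ →* D.group F) (e : Δ), PrimeCover τ e p →
    ∀ X Y t v, τ X = S.xg r t → τ Y = S.xg s v → X * Y = Y * X

/-- Commuting root groups define a pairing. -/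
theorem exists_pairing {Δ : Type u} [Group Δ] {τ : Δ →* D.group F} {e : Δ} (c : PrimeCover τ e p)
    (r s : ℕ) (hc : ∀ t v : F, S.xg r t * S.xg s v = S.xg s v * S.xg r t) :
    ∃ B : F → F → Δ, (∀ t t' v, B (t + t') v = B t v * B t' v) ∧
      (∀ t v v', B t (v + v') = B t v * B t v') ∧
      (∀ X Y t v, τ X = S.xg r t → τ Y = S.xg s v → ⁅X, Y⁆ = B t v) ∧
      (∀ t v, B t v ^ p = 1) ∧
      ∀ (g : D.group F) t v r' s' t' v', g * S.xg r t * g⁻¹ = S.xg r' t' →
        g * S.xg s v * g⁻¹ = S.xg s' v' → ∀ X Y, τ X = S.xg r' t' → τ Y = S.xg s' v' →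
        ⁅X, Y⁆ = B t v := by
  choose L hL using c.surj
  set B : F → F → Δ := fun t v => ⁅L (S.xg r t), L (S.xg s v)⁆ with hB
  have hker : ∀ t v, B t v ∈ τ.ker := fun t v => by
    rw [MonoidHom.mem_ker, hB, map_commutatorElement, hL, hL, commutatorElement_eq_one_iff_mul_comm, hc]
  have hwd : ∀ X Y t v, τ X = S.xg r t → τ Y = S.xg s v → ⁅X, Y⁆ = B t v := fun X Y t v hX hY =>
    c.comm_eq (hX.trans (hL _).symm) (hY.trans (hL _).symm)
  refine ⟨B, fun t t' v => ?_, fun t v v' => ?_, hwd, fun t v => c.pow_ker (hker t v),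
    fun g t v r' s' t' v' h1 h2 X Y hX hY => ?_⟩
  · rw [← hwd (L (S.xg r t) * L (S.xg r t')) (L (S.xg s v)) (t + t') v
        (by rw [map_mul, hL, hL, S.xg_add]) (hL _),
      show ⁅L (S.xg r t) * L (S.xg r t'), L (S.xg s v)⁆ =
        L (S.xg r t) * ⁅L (S.xg r t'), L (S.xg s v)⁆ * (L (S.xg r t))⁻¹ * ⁅L (S.xg r t), L (S.xg s v)⁆ by
        simp only [commutatorElement_def]; group]
    show L (S.xg r t) * B t' v * (L (S.xg r t))⁻¹ * B t v = _
    rw [c.conj_ker _ (hker t' v), c.comm _ (hker t v)]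
  · rw [← hwd (L (S.xg r t)) (L (S.xg s v) * L (S.xg s v')) t (v + v') (hL _)
        (by rw [map_mul, hL, hL, S.xg_add]),
      show ⁅L (S.xg r t), L (S.xg s v) * L (S.xg s v')⁆ =
        ⁅L (S.xg r t), L (S.xg s v)⁆ * (L (S.xg s v) * ⁅L (S.xg r t), L (S.xg s v')⁆ * (L (S.xg s v))⁻¹) by
        simp only [commutatorElement_def]; group]
    show B t v * (L (S.xg s v) * B t v' * (L (S.xg s v))⁻¹) = _
    rw [c.conj_ker _ (hker t v')]
  · rw [c.comm_eq (x' := L g * L (S.xg r t) * (L g)⁻¹) (y' := L g * L (S.xg s v) * (L g)⁻¹)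
        (by rw [hX, map_mul, map_mul, map_inv, hL, hL, h1])
        (by rw [hY, map_mul, map_mul, map_inv, hL, hL, h2]),
      show ⁅L g * L (S.xg r t) * (L g)⁻¹, L g * L (S.xg s v) * (L g)⁻¹⁆ =
        L g * ⁅L (S.xg r t), L (S.xg s v)⁆ * (L g)⁻¹ by simp only [commutatorElement_def]; group]
    exact c.conj_ker _ (hker t v)

theorem rootComm_of_vanishes {r s : ℕ} (hr : r < D.nroots) (hs : s < D.nroots)
    (hc : ∀ t v : F, S.xg r t * S.xg s v = S.xg s v * S.xg r t) (hV : Vanishes D F r s) :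
    S.RootComm (F := F) p r s := by
  intro Δ _ τ e c X Y t v hX hY
  obtain ⟨B, hl, hr', hwd, -, hconj⟩ := S.exists_pairing c r s hc
  rw [← commutatorElement_eq_one_iff_mul_comm, hwd X Y t v hX hY]
  refine hV Δ B hl hr' (fun i hi a t v => ?_) t v
  obtain ⟨X', hX'⟩ := c.surj (S.xg r (((a ^ D.cartan i r : Fˣ) : F) * t))
  obtain ⟨Y', hY'⟩ := c.surj (S.xg s (((a ^ D.cartan i s : Fˣ) : F) * v))
  rw [← hwd X' Y' _ _ hX' hY']
  exact hconj (S.hG i a) t v r s _ _ (S.hG_conj hi hr a t) (S.hG_conj hi hs a v) X' Y' hX' hY'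

/-- A root group of prime order commutes with itself. -/
theorem rootComm_prime [Finite F] [hp : Fact p.Prime] [CharP F p] (hq : Nat.card F = p) (r : ℕ) :
    S.RootComm (F := F) p r r := by
  intro Δ _ τ e c X Y t v hX hY
  haveI := Fintype.ofFinite F
  have hsurj : Function.Surjective (ZMod.castHom (dvd_refl p) F) :=
    ((Fintype.bijective_iff_injective_and_card _).2 ⟨(ZMod.castHom (dvd_refl p) F).injective,
      by rw [ZMod.card, ← Nat.card_eq_fintype_card, hq]⟩).2
  have hn : ∀ t : F, ∃ n : ℕ, (n : F) = t := fun t => by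
    obtain ⟨z, hz⟩ := hsurj t
    exact ⟨z.val, by rw [← hz, ← map_natCast (ZMod.castHom (dvd_refl p) F), ZMod.natCast_zmod_val]⟩
  obtain ⟨x, hx⟩ := c.surj (S.xg r (1 : F))
  have hxn : ∀ n : ℕ, τ (x ^ n) = S.xg r (n : F) := fun n => by
    induction n with
    | zero => simp [S.xg_zero]
    | succ n ih => rw [pow_succ, map_mul, ih, hx, Nat.cast_succ, S.xg_add]
  obtain ⟨n, rfl⟩ := hn t
  obtain ⟨n', rfl⟩ := hn v
  rw [← commutatorElement_eq_one_iff_mul_comm, c.comm_eq (hX.trans (hxn n).symm) (hY.trans (hxn n').symm),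
    commutatorElement_eq_one_iff_mul_comm]
  exact (Commute.refl x).pow_pow n n'

/-- The commutator terms of `(r, a)` vanish when `d = 0` in the field. -/
def commChk (D : ChevalleyDatum) (d : ℕ) (r a : ℕ) : Bool :=
  decide (a ≠ r) && decide (a ≠ D.neg r) &&
    (D.commTerms r a).all fun c => decide (c.1 < D.nroots) && decide ((d : ℤ) ∣ c.2.1)

theorem comm_of_chk {d : ℕ} (hd : (d : F) = 0) {r a : ℕ} (hr : r < D.nroots) (ha : a < D.nroots)
    (h : commChk D d r a = true) (t v : F) : S.xg r t * S.xg a v = S.xg a v * S.xg r t := by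
  simp only [commChk, Bool.and_eq_true, decide_eq_true_eq, List.all_eq_true] at h
  obtain ⟨⟨h1, h2⟩, h3⟩ := h
  refine Subtype.ext ?_
  show S.xU r t * S.xU a v = S.xU a v * S.xU r t
  rw [S.comm_wU hr ha h1 h2 t v, Sys.wU, List.prod_eq_one, mul_one]
  intro y hy
  simp only [ChevalleyDatum.commWord, List.map_map, List.mem_map, Function.comp_apply] at hy
  obtain ⟨c, hc, rfl⟩ := hy
  obtain ⟨-, k, hk⟩ := h3 c hc
  rw [hk]
  push_cast
  rw [hd, zero_mul, zero_mul, zero_mul, S.xU_zero]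

/-- `s` is a unit term of the commutator of two roots `a`, `b` whose groups commute with `x_r`. -/
def decChk (D : ChevalleyDatum) (good null : ℤ → Bool) (d r s a b k : ℕ) : Bool :=
  decide (a < D.nroots) && decide (b < D.nroots) && decide (b ≠ a) && decide (b ≠ D.neg a) &&
    commChk D d r a && commChk D d r b &&
    match (D.commTerms a b)[k]? with
    | none => false
    | some c => decide (c.1 = s) && decide (c.2.1.natAbs = 1) && decide (c.2.2.1 = 1) &&
        ((D.commTerms a b).take k ++ (D.commTerms a b).drop (k + 1)).all fun c' =>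
          decide (c'.1 < D.nroots) && commChk D d r c'.1 && sepChk D good null r c'.1

theorem rootComm_of_dec {d : ℕ} (hd : (d : F) = 0) {good null : ℤ → Bool} (hE : ExpPred F good null)
    {r s a b k : ℕ} (hr : r < D.nroots) (h : decChk D good null d r s a b k = true) :
    S.RootComm (F := F) p r s := by
  simp only [decChk, Bool.and_eq_true, decide_eq_true_eq] at h
  obtain ⟨⟨⟨⟨⟨⟨ha, hb⟩, hab⟩, hab'⟩, hca⟩, hcb⟩, h⟩ := h
  split at h
  · exact absurd h Bool.false_ne_true
  rename_i c₀ hk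
  simp only [Bool.and_eq_true, decide_eq_true_eq, List.all_eq_true] at h
  obtain ⟨⟨⟨hcs, hcu⟩, hcd⟩, hothers⟩ := h
  intro Δ _ τ e c X Y t v hX hY
  -- the image of the centraliser of `X`
  let C : Subgroup (D.group F) := (Subgroup.centralizer {X}).map τ
  have hmem : ∀ Z, (∀ W, τ W = Z → X * W = W * X) → Z ∈ C := fun Z hZ => by
    obtain ⟨W, rfl⟩ := c.surj Z
    exact ⟨W, Subgroup.mem_centralizer_singleton_iff.2 (hZ W rfl).symm, rfl⟩
  have hget : ∀ Z ∈ C, ∀ W, τ W = Z → X * W = W * X := by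
    rintro Z ⟨W', hW', rfl⟩ W hW
    have h1 : X * W' = W' * X := (Subgroup.mem_centralizer_singleton_iff.1 hW').symm
    rw [← commutatorElement_eq_one_iff_mul_comm, c.comm_eq (x' := X) rfl hW,
      commutatorElement_eq_one_iff_mul_comm]
    exact h1
  obtain ⟨A₀, hA₀⟩ := c.surj (S.xg a (1 : F))
  have hword : ∀ t' v', S.xg a t' * S.xg b v' * (S.xg a t')⁻¹ * (S.xg b v')⁻¹ ∈ C := by
    intro t' v'
    obtain ⟨A, hA⟩ := c.surj (S.xg a t')
    obtain ⟨B, hB⟩ := c.surj (S.xg b v')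
    refine ⟨⁅A, B⁆, Subgroup.mem_centralizer_singleton_iff.2 ?_, by rw [map_commutatorElement, hA, hB, commutatorElement_def]⟩
    have h1 : τ (X * A * X⁻¹) = τ A := by
      rw [map_mul, map_mul, map_inv, hX, hA, S.comm_of_chk hd hr ha hca, mul_inv_cancel_right]
    have h2 : τ (X * B * X⁻¹) = τ B := by
      rw [map_mul, map_mul, map_inv, hX, hB, S.comm_of_chk hd hr hb hcb, mul_inv_cancel_right]
    rw [eq_comm, ← mul_inv_eq_iff_eq_mul,
      show X * ⁅A, B⁆ * X⁻¹ = ⁅X * A * X⁻¹, X * B * X⁻¹⁆ by simp only [commutatorElement_def]; group,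
      c.comm_eq h1 h2]
  have hoth : ∀ c' ∈ (D.commTerms a b).take k ++ (D.commTerms a b).drop (k + 1), ∀ z : F,
      S.xg c'.1 z ∈ C := by
    intro c' hc' z
    obtain ⟨⟨h1, h2⟩, h3⟩ := hothers c' hc'
    exact hmem _ fun W hW => S.rootComm_of_vanishes hr h1 (S.comm_of_chk hd hr h1 h2)
      (vanishes_of_sep hE h3) Δ τ e c X W t z hX hW
  have hkl : k < (D.commTerms a b).length := by
    rw [List.getElem?_eq_some_iff] at hk
    exact hk.1
  have hsplit : D.commTerms a b =
      (D.commTerms a b).take k ++ c₀ :: (D.commTerms a b).drop (k + 1) := by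
    conv_lhs => rw [← List.take_append_drop k (D.commTerms a b), List.drop_eq_getElem_cons hkl]
    rw [(List.getElem?_eq_some_iff.1 hk).2]
  -- every element of `X_s` lies in that image
  have hs' : ∀ z : F, S.xg s z ∈ C := by
    intro z
    obtain ⟨ε, hε, hεε⟩ : ∃ ε : ℤ, c₀.2.1 = ε ∧ ε * ε = 1 := ⟨_, rfl, by
      rw [← Int.natAbs_mul_self, hcu]; rfl⟩
    set t' : F := -((ε : F) * z)
    have hcommW : (S.xg b 1)⁻¹ * (S.xg a t')⁻¹ * S.xg b 1 * S.xg a t' ∈ C := by
      have hn : ∀ (r : ℕ) (w : F), S.xg r (-w) = (S.xg r w)⁻¹ := fun r w => (S.xg_inv r w).symm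
      have := hword (-t') (-1)
      rw [hn a t', hn b 1, inv_inv, inv_inv] at this
      have h2 : (S.xg b (1 : F))⁻¹ * (S.xg a t')⁻¹ * S.xg b 1 * S.xg a t' =
          ((S.xg a t')⁻¹ * (S.xg b (1 : F))⁻¹ * S.xg a t' * S.xg b 1)⁻¹ := by group
      rw [h2]; exact inv_mem this
    have himg : (S.xg b 1)⁻¹ * (S.xg a t')⁻¹ * S.xg b 1 * S.xg a t' =
        ((D.commWord F a b t' 1).map fun q => S.xg q.1 q.2).prod := by
      refine Subtype.ext ?_
      push_cast
      rw [List.map_map]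
      show (S.xU b 1)⁻¹ * (S.xU a t')⁻¹ * S.xU b 1 * S.xU a t' = S.wU (D.commWord F a b t' 1)
      rw [mul_assoc _ (S.xU b 1) (S.xU a t'), S.comm_wU ha hb hab hab']
      group
    rw [himg, ChevalleyDatum.commWord, hsplit, List.map_append, List.map_cons, List.map_append, List.map_cons, List.prod_append, List.prod_cons] at hcommW
    have hP : ∀ l : List (ℕ × ℤ × ℕ × ℕ),
        (∀ c' ∈ l, c' ∈ (D.commTerms a b).take k ++ (D.commTerms a b).drop (k + 1)) →
        ((l.map fun c' => (c'.1, (c'.2.1 : F) * (-t') ^ c'.2.2.1 * (1 : F) ^ c'.2.2.2)).map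
          fun q => S.xg q.1 q.2).prod ∈ C := by
      intro l hl
      refine list_prod_mem fun y hy => ?_
      simp only [List.map_map, List.mem_map, Function.comp_apply] at hy
      obtain ⟨c', hc', rfl⟩ := hy
      exact hoth c' (hl c' hc') _
    have h1 := hP _ fun c' hc' => List.mem_append_left _ hc'
    have h2 := hP ((D.commTerms a b).drop (k + 1)) fun c' hc' => List.mem_append_right _ hc'
    have h3 := mul_mem (mul_mem (inv_mem h1) hcommW) (inv_mem h2)
    simp only [mul_assoc, inv_mul_cancel_left, mul_inv_cancel, mul_one] at h3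
    rw [hcs, hcd, hε, one_pow, pow_one, mul_one, show -t' = (ε : F) * z from _root_.neg_neg _, ← mul_assoc,
      ← Int.cast_mul, hεε, Int.cast_one, one_mul] at h3
    exact h3
  exact hget _ (hs' v) Y hY

/-- Two root groups commute if some monomial element reverses the sign of their pairing. -/
def monoImage (L : List ℕ) (r : ℕ) : ℕ × ℤ :=
  L.foldr (fun q x => (S.pi q x.1, S.eta q x.1 * x.2)) (r, 1)

/-- The check behind `rootComm_of_mono`. -/
def monoChk (L : List ℕ) (r s : ℕ) : Bool :=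
  (L.all fun q => decide (q < D.rank)) &&
    ((decide ((S.monoImage L r).1 = r) && decide ((S.monoImage L s).1 = s) &&
        decide ((S.monoImage L r).2 * (S.monoImage L s).2 = -1)) ||
      (decide ((S.monoImage L r).1 = s) && decide ((S.monoImage L s).1 = r) &&
        decide ((S.monoImage L r).2 * (S.monoImage L s).2 = 1)))

theorem exists_mono {L : List ℕ} (hL : ∀ q ∈ L, q < D.rank) : ∃ g : D.group F, ∀ r < D.nroots,
    (S.monoImage L r).1 < D.nroots ∧ ∀ t, g * S.xg r t * g⁻¹ =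
      S.xg (S.monoImage L r).1 (((S.monoImage L r).2 : F) * t) := by
  induction L with
  | nil => exact ⟨1, fun r hr => ⟨hr, fun t => by simp [monoImage]⟩⟩
  | cons q L ih =>
    obtain ⟨g, hg⟩ := ih fun x hx => hL x (List.mem_cons_of_mem _ hx)
    have hq := hL q (List.mem_cons_self ..)
    refine ⟨⟨S.nU (D.simple q) 1, S.wU_mem_group' _⟩ * g, fun r hr => ⟨S.pi_lt q hq _ (hg r hr).1, fun t => ?_⟩⟩
    rw [show ∀ n : D.group F, n * g * S.xg r t * (n * g)⁻¹ = n * (g * S.xg r t * g⁻¹) * n⁻¹ from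
      fun n => by group, (hg r hr).2 t]
    refine Subtype.ext ?_
    show S.nU (D.simple q) 1 * S.xU _ _ * (S.nU (D.simple q) 1)⁻¹ = S.xU _ _
    rw [S.nU_conj_xU hq (hg r hr).1]
    show _ = S.xU (S.pi q (S.monoImage L r).1)
      (((S.eta q (S.monoImage L r).1 * (S.monoImage L r).2 : ℤ) : F) * t)
    rw [Int.cast_mul, mul_assoc]

theorem rootComm_of_mono (hp : p ≠ 2) [hp' : Fact p.Prime] {L : List ℕ} {r s : ℕ} (hr : r < D.nroots)
    (hs : s < D.nroots) (hc : ∀ t v : F, S.xg r t * S.xg s v = S.xg s v * S.xg r t)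
    (hq : Nat.card F = p) [CharP F p] [Finite F] (h : S.monoChk L r s = true) :
    S.RootComm (F := F) p r s := by
  simp only [monoChk, Bool.and_eq_true, Bool.or_eq_true, decide_eq_true_eq, List.all_eq_true] at h
  obtain ⟨hL, h⟩ := h
  obtain ⟨g, hg⟩ := S.exists_mono (F := F) hL
  intro Δ _ τ e c X Y t v hX hY
  obtain ⟨B, hl, hr', hwd, hBp, hconj⟩ := S.exists_pairing c r s hc
  rw [← commutatorElement_eq_one_iff_mul_comm, hwd X Y t v hX hY]
  haveI := Fintype.ofFinite F
  have hn : ∀ t : F, ∃ n : ℕ, (n : F) = t := fun t => by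
    have hsurj : Function.Surjective (ZMod.castHom (dvd_refl p) F) :=
      ((Fintype.bijective_iff_injective_and_card _).2 ⟨(ZMod.castHom (dvd_refl p) F).injective,
        by rw [ZMod.card, ← Nat.card_eq_fintype_card, hq]⟩).2
    obtain ⟨z, hz⟩ := hsurj t
    exact ⟨z.val, by rw [← hz, ← map_natCast (ZMod.castHom (dvd_refl p) F), ZMod.natCast_zmod_val]⟩
  have hB0 : ∀ t, B 0 t = 1 := fun t => (left_eq_mul (a := B 0 t)).1 (by rw [← hl, add_zero])
  have hB0' : ∀ t, B t 0 = 1 := fun t => (left_eq_mul (a := B t 0)).1 (by rw [← hr', add_zero])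
  have hBn : ∀ n n' : ℕ, B (n : F) (n' : F) = B 1 1 ^ (n * n') := by
    intro n n'
    have h1 : B (n : F) 1 = B 1 1 ^ n := by
      induction n with
      | zero => simp [hB0]
      | succ n ih => rw [Nat.cast_succ, hl, ih, pow_succ]
    induction n' with
    | zero => simp [hB0']
    | succ n' ih => rw [Nat.cast_succ, hr', ih, h1, ← pow_add, Nat.mul_succ]
  obtain ⟨n, rfl⟩ := hn t
  obtain ⟨n', rfl⟩ := hn v
  suffices H : B 1 1 = 1 by rw [hBn, H, one_pow]
  set β := B 1 1
  set ε := (S.monoImage L r).2 with hε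
  set ε' := (S.monoImage L s).2 with hε'
  have hz : ∀ (x : Δ), x * x = 1 → x ^ p = 1 → x = 1 := fun x h2 hpx => by
    obtain ⟨j, hj⟩ := hp'.out.odd_of_ne_two hp
    rw [hj, pow_succ, pow_mul, pow_two, h2, one_pow, one_mul] at hpx
    exact hpx
  have hneg : ∀ t v, B (-t) v = (B t v)⁻¹ := fun t v =>
    eq_inv_of_mul_eq_one_left (by rw [← hl, neg_add_cancel, hB0])
  have hneg' : ∀ t v, B t (-v) = (B t v)⁻¹ := fun t v =>
    eq_inv_of_mul_eq_one_left (by rw [← hr', neg_add_cancel, hB0'])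
  have hunit : ∀ a b : ℤ, (a * b = 1 ∨ a * b = -1) → (a = 1 ∨ a = -1) ∧ (b = 1 ∨ b = -1) := by
    intro a b hab
    rcases hab with hab | hab
    · rcases Int.mul_eq_one_iff_eq_one_or_neg_one.1 hab with ⟨rfl, rfl⟩ | ⟨rfl, rfl⟩ <;> simp
    · rcases Int.mul_eq_neg_one_iff_eq_one_or_neg_one.1 hab with ⟨rfl, rfl⟩ | ⟨rfl, rfl⟩ <;> simp
  obtain ⟨X', hX'⟩ := c.surj (S.xg (S.monoImage L r).1 ((ε : F) * 1))
  obtain ⟨Y', hY'⟩ := c.surj (S.xg (S.monoImage L s).1 ((ε' : F) * 1))
  have key := hconj g 1 1 _ _ _ _ ((hg r hr).2 1) ((hg s hs).2 1) X' Y' hX' hY'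
  rcases h with ⟨⟨h1, h2⟩, h3⟩ | ⟨⟨h1, h2⟩, h3⟩
  · rw [h1, mul_one] at hX'
    rw [h2, mul_one] at hY'
    rw [hwd X' Y' _ _ hX' hY'] at key
    refine hz β ?_ (hBp 1 1)
    obtain ⟨he, he'⟩ := hunit _ _ (Or.inr h3)
    have : β⁻¹ = β := by
      rcases he with e | e <;> rcases he' with e' | e' <;> rw [e, e'] at h3 <;>
        first
          | exact absurd h3 (by decide)
          | (rw [e, e'] at key; push_cast at key
             first | rwa [hneg] at key | rwa [hneg'] at key)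
    calc β * β = β⁻¹ * β := by rw [this]
      _ = 1 := inv_mul_cancel β
  · rw [h1, mul_one] at hX'
    rw [h2, mul_one] at hY'
    rw [← commutatorElement_inv, hwd Y' X' _ _ hY' hX'] at key
    refine hz β ?_ (hBp 1 1)
    obtain ⟨he, he'⟩ := hunit _ _ (Or.inl h3)
    have : β⁻¹ = β := by
      rcases he with e | e <;> rcases he' with e' | e' <;> rw [e, e'] at h3 <;>
        first
          | exact absurd h3 (by decide)
          | (rw [e, e'] at key; push_cast at key
             first | exact key | rwa [hneg, hneg', inv_inv] at key)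
    calc β * β = β⁻¹ * β := by rw [this]
      _ = 1 := inv_mul_cancel β

/-- **Sections from the torus.** -/
theorem noPCover_torus [Finite F] [hp : Fact p.Prime] [CharP F p]
    (hidx : ¬ p ∣ (Sys.posG (D := D) F).index)
    (hsame : ∀ r, D.nroots / 2 ≤ r → r < D.nroots → S.RootComm (F := F) p r r)
    (hcan : ∀ r, D.nroots / 2 ≤ r → r < D.nroots → ∃ i < D.rank, ∃ a : Fˣ, a ^ D.cartan i r ≠ 1)
    (hvan : ∀ r s, D.nroots / 2 ≤ r → r < s → s < D.nroots →
      Vanishes D F r s ∨ S.RootComm (F := F) p r s) :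
    NoPCover D F p := by
  classical
  intro Δ _ _ τ e c he
  choose L hL using c.surj
  have hex : ∀ r, ∃ x : ℕ × Fˣ, D.nroots / 2 ≤ r → r < D.nroots →
      x.1 < D.rank ∧ ((x.2 ^ D.cartan x.1 r : Fˣ) : F) ≠ 1 := fun r => by
    by_cases h : D.nroots / 2 ≤ r ∧ r < D.nroots
    · obtain ⟨i, hi, a, ha⟩ := hcan r h.1 h.2
      exact ⟨(i, a), fun _ _ => ⟨hi, fun e1 => ha (Units.ext e1)⟩⟩
    · exact ⟨(0, 1), fun h1 h2 => absurd ⟨h1, h2⟩ h⟩
  choose ia hia using hex
  set κ : ℕ → F := fun r => (((ia r).2 ^ D.cartan (ia r).1 r : Fˣ) : F)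
  set lam : ℕ → F → Δ := fun r t => ⁅L (S.hG (ia r).1 (ia r).2), L (S.xg r (t / (κ r - 1)))⁆
  have himg : ∀ r, D.nroots / 2 ≤ r → r < D.nroots → ∀ t, τ (lam r t) = S.xg r t := by
    intro r h1 h2 t
    obtain ⟨hi, hne⟩ := hia r h1 h2
    rw [map_commutatorElement, hL, hL, commutatorElement_def, S.hG_conj hi h2, S.xg_inv, ← S.xg_add]
    congr 1
    show κ r * (t / (κ r - 1)) + -(t / (κ r - 1)) = t
    rw [← sub_eq_add_neg, ← sub_one_mul, mul_div_cancel₀ _ (sub_ne_zero.2 hne)]
  let Λ : S.Section τ :=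
    { lam := lam
      proj := fun r h2 h1 t => himg r h1 h2 t
      add := fun r h2 h1 t v => by
        set x := L (S.xg r (t / (κ r - 1)))
        set y := L (S.xg r (v / (κ r - 1)))
        set H := L (S.hG (ia r).1 (ia r).2)
        have h3 : lam r (t + v) = ⁅H, x * y⁆ :=
          c.comm_eq rfl (by rw [hL, map_mul, hL, hL, ← S.xg_add, add_div])
        have h4 : x * ⁅H, y⁆ = ⁅H, y⁆ * x :=
          hsame r h1 h2 Δ τ e c x ⁅H, y⁆ (t / (κ r - 1)) v (hL _) (himg r h1 h2 v)
        rw [h3, show ⁅H, x * y⁆ = ⁅H, x⁆ * (x * ⁅H, y⁆ * x⁻¹) by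
          simp only [commutatorElement_def]; group, h4, mul_inv_cancel_right] }
  have hequiv : ∀ i < D.rank, ∀ a : Fˣ, ∃ H : Δ, ∀ r < D.nroots, D.nroots / 2 ≤ r → ∀ t,
      H * Λ.lam r t * H⁻¹ = Λ.lam r (((a ^ D.cartan i r : Fˣ) : F) * t) := by
    intro i hi a
    refine ⟨L (S.hG i a), fun r h2 h1 t => ?_⟩
    obtain ⟨hj, hne⟩ := hia r h1 h2
    show L (S.hG i a) * ⁅_, _⁆ * (L (S.hG i a))⁻¹ = ⁅_, _⁆
    rw [show ∀ x y g : Δ, g * ⁅x, y⁆ * g⁻¹ = ⁅g * x * g⁻¹, g * y * g⁻¹⁆ from fun x y g => by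
      simp only [commutatorElement_def]; group]
    refine c.comm_eq ?_ ?_
    · rw [map_mul, map_mul, map_inv, hL, hL, S.hG_comm hi hj, mul_inv_cancel_right]
    · rw [map_mul, map_mul, map_inv, hL, hL, hL, S.hG_conj hi h2, mul_div_assoc]
  have hQ := Λ.rel_all c hequiv fun r s h1 h2 h3 => (hvan r s h1 h2 h3).imp id fun hc t v =>
    commutatorElement_eq_one_iff_mul_comm.2
      (hc Δ τ e c _ _ t v (Λ.proj r (by omega) h1 t) (Λ.proj s h3 (by omega) v))
  have hP : IsPGroup p (Sys.posG (D := D) F) :=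
    (S.isPGroup_pos (F := F) p).comap_of_injective _ Subtype.val_injective
  exact Λ.not_mem_commutator c hQ (c.mem_commutator he (hP.toSylow hidx))

end Sys

end CfsgLib.Chev
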