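import Cfsg.Agent.Chev.Cover.SplitChk

/-!
# Splitting of double covers over the field with two elements, simply laced case

Every root has a decomposition as a sum of two roots; the commutator of lifts does not depend on
the decomposition and gives the section.
-/

set_option autoImplicit false
set_option linter.style.haveILetI false
set_option linter.unusedSectionVars false

namespace CfsgLib.Chev

open Cfsg.Lie Matrix CfsgLib.Schur
open scoped commutatorElement

universe u

/-- The exponent predicate accepting nothing. -/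
def noExp (_ : ℤ) : Bool := false

/-- The root to be added to `a` to give `s`. -/
def partner (D : ChevalleyDatum) (s a : ℕ) : Option ℕ := D.chainRoot (D.neg a) s 1

/-- Commutators have at most one term, with a unit coefficient. -/
def shapeChk (D : ChevalleyDatum) : Bool :=
  (List.range D.nroots).all fun a => (List.range D.nroots).all fun b =>
    decide (b = a) || decide (b = D.neg a) ||
      match D.commTerms a b with
      | [] => true
      | [c] => decide (c.1 < D.nroots) && decide (c.2.1.natAbs = 1) &&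
          decide (partner D c.1 a = some b)
      | _ => false

/-- Every root commuting with a fundamental root commutes with it in covers. -/
def commBaseChk (D : ChevalleyDatum) : Bool :=
  (List.range D.rank).all fun i => (List.range D.nroots).all fun s =>
    decide (s = D.neg (D.simple i)) ||
      (decide (s ≠ D.simple i) && !(D.commTerms (D.simple i) s).isEmpty) ||
      (List.range D.nroots).any fun a =>
        match partner D s a with
        | none => false
        | some b => Sys.decChk D noExp noExp 0 (D.simple i) s a b 0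

/-- A term of a commutator with empty commutator terms. -/
def emptyPair (D : ChevalleyDatum) (a b : ℕ) : Bool :=
  decide (b ≠ a) && decide (b ≠ D.neg a) && (D.commTerms a b).isEmpty

/-- `(a, b)` is a decomposition of `s`. -/
def decPair (D : ChevalleyDatum) (s a b : ℕ) : Bool :=
  decide (a < D.nroots) && decide (b < D.nroots) && decide (b ≠ a) && decide (b ≠ D.neg a) &&
    match D.commTerms a b with
    | [c] => decide (c.1 = s)
    | _ => false

/-- The three term step between two decompositions. -/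
def hwChk (D : ChevalleyDatum) (s a b c d : ℕ) : Bool :=
  match partner D a c with
  | none => false
  | some e => decPair D a c e && decPair D d e b && decPair D s a b && decPair D s c d &&
      emptyPair D c b && emptyPair D a d && emptyPair D d s

/-- The decompositions of a fundamental root, with the steps between them. -/
def decBaseChk (D : ChevalleyDatum) : Bool :=
  (List.range D.rank).all fun i =>
    let L := (List.range D.nroots).filterMap fun a => (partner D (D.simple i) a).map fun b => (a, b)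
    let L' := L.filter fun x => decPair D (D.simple i) x.1 x.2
    !L'.isEmpty && (L'.all fun x => emptyPair D x.1 (D.simple i)) && (L'.take 1).all fun x =>
      L'.all fun y =>
        decide (y = x) || decide (y = (x.2, x.1)) || hwChk D (D.simple i) x.1 x.2 y.1 y.2 ||
          hwChk D (D.simple i) x.2 x.1 y.1 y.2 || hwChk D (D.simple i) x.1 x.2 y.2 y.1 ||
          hwChk D (D.simple i) x.2 x.1 y.2 y.1

namespace Sys

variable {D : ChevalleyDatum} (S : Sys.{u} D) {F : Type u} [Field F] [Finite F]

/-- Decomposition of a root, read in the group. -/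
def IsDec (F : Type u) [Field F] (s a b : ℕ) : Prop :=
  a < D.nroots ∧ b < D.nroots ∧ b ≠ a ∧ b ≠ D.neg a ∧
    ⁅S.xg a (1 : F), S.xg b (1 : F)⁆ = S.xg s 1

variable [CharP F 2] (hq : Nat.card F = 2)
include hq

theorem elt_two (t : F) : t = 0 ∨ t = 1 := by
  classical
  haveI := Fintype.ofFinite F
  rw [Nat.card_eq_fintype_card] at hq
  by_contra h
  push Not at h
  have h1 : ({0, 1, t} : Finset F).card = 3 := by
    rw [Finset.card_insert_of_notMem (by simp [zero_ne_one, Ne.symm h.1]),
      Finset.card_insert_of_notMem (by simp [Ne.symm h.2]), Finset.card_singleton]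
  have h2 := Finset.card_le_univ ({0, 1, t} : Finset F)
  omega

theorem xg_inv_one (r : ℕ) : (S.xg r (1 : F))⁻¹ = S.xg r 1 := by
  rw [S.xg_inv, neg_eq_of_add_eq_zero_right (CharTwo.add_self_eq_zero (1 : F))]

theorem int_unit_cast {C : ℤ} (h : C.natAbs = 1) : (C : F) = 1 := by
  rcases Int.natAbs_eq C with e | e <;> rw [h] at e <;> rw [e]
  · simp
  · push_cast
    exact neg_eq_of_add_eq_zero_right (CharTwo.add_self_eq_zero (1 : F))

theorem xg_ne_one {r : ℕ} (hr : r < D.nroots) : S.xg r (1 : F) ≠ 1 := fun h =>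
  one_ne_zero (S.coef_eq hr ((congrArg Subtype.val h).trans (S.xU_zero r).symm))

theorem comm_value {a b : ℕ} (ha : a < D.nroots) (hb : b < D.nroots) (h1 : b ≠ a)
    (h2 : b ≠ D.neg a) {c : ℕ × ℤ × ℕ × ℕ} (hc : D.commTerms a b = [c]) (hu : c.2.1.natAbs = 1) :
    ⁅S.xg a (1 : F), S.xg b (1 : F)⁆ = S.xg c.1 1 := by
  have hm : (-1 : F) = 1 := neg_eq_of_add_eq_zero_right (CharTwo.add_self_eq_zero (1 : F))
  have h := S.comm_wU (F := F) ha hb h1 h2 1 1
  rw [ChevalleyDatum.commWord, hc] at h
  simp only [Sys.wU, List.map_cons, List.map_nil, List.prod_cons, List.prod_nil, mul_one, one_pow, hm,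
    int_unit_cast hq hu] at h
  have e : S.xg b (1 : F) * S.xg a 1 = S.xg a 1 * S.xg b 1 * S.xg c.1 1 := Subtype.ext h
  have e' := congrArg Inv.inv e
  simp only [_root_.mul_inv_rev, S.xg_inv_one hq] at e'
  rw [commutatorElement_def, S.xg_inv_one hq, S.xg_inv_one hq, e']
  calc S.xg c.1 1 * (S.xg b 1 * S.xg a 1) * S.xg a 1 * S.xg b 1
      = S.xg c.1 1 * (S.xg b 1 * (S.xg a 1 * S.xg a 1) * S.xg b 1) := by group
    _ = S.xg c.1 1 := by
        rw [← S.xg_add, CharTwo.add_self_eq_zero, S.xg_zero, mul_one, ← S.xg_add,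
          CharTwo.add_self_eq_zero, S.xg_zero, mul_one]

theorem comm_empty {a b : ℕ} (ha : a < D.nroots) (hb : b < D.nroots) (h1 : b ≠ a)
    (h2 : b ≠ D.neg a) (hc : D.commTerms a b = []) (t v : F) :
    S.xg a t * S.xg b v = S.xg b v * S.xg a t := by
  refine (Subtype.ext ?_).symm
  show S.xU b v * S.xU a t = S.xU a t * S.xU b v
  rw [S.comm_wU ha hb h1 h2 t v, ChevalleyDatum.commWord, hc]
  simp [Sys.wU]

theorem comm_emptyPair {a b : ℕ} (ha : a < D.nroots) (hb : b < D.nroots) (h : emptyPair D a b = true)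
    (t v : F) : S.xg a t * S.xg b v = S.xg b v * S.xg a t := by
  simp only [emptyPair, Bool.and_eq_true, decide_eq_true_eq, List.isEmpty_iff] at h
  exact S.comm_empty hq ha hb h.1.1 h.1.2 h.2 t v

theorem shape_of_chk (h : shapeChk D = true) {a b : ℕ} (ha : a < D.nroots) (hb : b < D.nroots)
    (h1 : b ≠ a) (h2 : b ≠ D.neg a) :
    D.commTerms a b = [] ∨ ∃ c, D.commTerms a b = [c] ∧ c.1 < D.nroots ∧ c.2.1.natAbs = 1 ∧
      partner D c.1 a = some b := by
  simp only [shapeChk, List.all_eq_true, List.mem_range] at h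
  have := h a ha b hb
  simp only [h1, h2, decide_false, Bool.false_or] at this
  split at this
  · rename_i he; exact Or.inl he
  · rename_i c he
    simp only [Bool.and_eq_true, decide_eq_true_eq] at this
    exact Or.inr ⟨c, he, this.1.1, this.1.2, this.2⟩
  · exact absurd this Bool.false_ne_true

theorem isDec_of_decPair (hsh : shapeChk D = true) {s a b : ℕ} (h : decPair D s a b = true) :
    S.IsDec F s a b := by
  simp only [decPair, Bool.and_eq_true, decide_eq_true_eq] at h
  obtain ⟨⟨⟨⟨ha, hb⟩, h1⟩, h2⟩, h⟩ := h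
  refine ⟨ha, hb, h1, h2, ?_⟩
  rcases shape_of_chk hq hsh ha hb h1 h2 with he | ⟨c, hc, -, hu, -⟩
  · rw [he] at h; exact absurd h Bool.false_ne_true
  · rw [hc] at h
    simp only [decide_eq_true_eq] at h
    rw [S.comm_value hq ha hb h1 h2 hc hu, h]

theorem decPair_of_isDec (hsh : shapeChk D = true) {s a b : ℕ} (hs : s < D.nroots)
    (h : S.IsDec F s a b) : decPair D s a b = true ∧ partner D s a = some b := by
  obtain ⟨ha, hb, h1, h2, h⟩ := h
  rcases shape_of_chk hq hsh ha hb h1 h2 with he | ⟨c, hc, hcn, hu, hp⟩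
  · rw [commutatorElement_eq_one_iff_mul_comm.2 (S.comm_empty hq ha hb h1 h2 he 1 1)] at h
    exact absurd h.symm (S.xg_ne_one hq hs)
  · rw [S.comm_value hq ha hb h1 h2 hc hu] at h
    have e : c.1 = s := S.root_eq_of_xU (c := (1 : F)) hcn hs (congrArg Subtype.val h)
    subst e
    exact ⟨by simp [decPair, ha, hb, h1, h2, hc], hp⟩

/-- The monomial element of a fundamental reflection. -/
theorem exists_refl_elt {q : ℕ} (hq' : q < D.rank) :
    ∃ n : D.group F, ∀ r < D.nroots, n * S.xg r 1 * n⁻¹ = S.xg (S.pi q r) 1 :=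
  ⟨⟨S.nU (D.simple q) 1, S.wU_mem_group' _⟩, fun r hr => Subtype.ext (by
    show S.nU (D.simple q) 1 * S.xU r 1 * (S.nU (D.simple q) 1)⁻¹ = S.xU (S.pi q r) 1
    rw [S.nU_conj_xU hq' hr]
    rcases S.eta_unit q hq' r hr with e | e <;> rw [e]
    · simp
    · push_cast
      rw [neg_eq_of_add_eq_zero_right (CharTwo.add_self_eq_zero (1 : F)), one_mul])⟩

theorem isDec_pi {q : ℕ} (hq' : q < D.rank) {s a b : ℕ} (hs : s < D.nroots)
    (h : S.IsDec F s a b) : S.IsDec F (S.pi q s) (S.pi q a) (S.pi q b) := by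
  obtain ⟨ha, hb, h1, h2, h⟩ := h
  obtain ⟨n, hn⟩ := S.exists_refl_elt hq (F := F) hq'
  refine ⟨S.pi_lt q hq' a ha, S.pi_lt q hq' b hb, fun e => h1 ?_, fun e => h2 ?_, ?_⟩
  · have := congrArg (S.pi q) e
    rwa [S.pi_pi q hq' a ha, S.pi_pi q hq' b hb] at this
  · have := congrArg (S.pi q) e
    rwa [S.pi_pi q hq' b hb, S.pi_neg q hq' _ (S.pi_lt q hq' a ha), S.pi_pi q hq' a ha] at this
  · rw [← hn a ha, ← hn b hb, ← hn s hs, ← h]
    simp only [commutatorElement_def]; group

section cover

variable {Δ : Type u} [Group Δ] {τ : Δ →* D.group F} {e : Δ} (c : PrimeCover τ e 2)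
include c

/-- Lifts of commuting root elements commute. -/
theorem comm_two (hsh : shapeChk D = true) (hcb : commBaseChk D = true) :
    ∀ r < D.nroots, ∀ s < D.nroots, s ≠ D.neg r →
      S.xg r (1 : F) * S.xg s 1 = S.xg s 1 * S.xg r 1 →
      ∀ X Y, τ X = S.xg r 1 → τ Y = S.xg s 1 → X * Y = Y * X := by
  refine S.descend ?_ ?_
  · intro i hi s hs hne hcomm X Y hX hY
    simp only [commBaseChk, List.all_eq_true, List.mem_range, Bool.or_eq_true, decide_eq_true_eq,
      Bool.and_eq_true, List.any_eq_true, Bool.not_eq_true', List.isEmpty_eq_false_iff] at hcb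
    rcases hcb i hi s hs with (h | ⟨h1, h2⟩) | ⟨a, ha, h⟩
    · exact absurd h hne
    · exfalso
      rcases shape_of_chk hq hsh (S.simple_lt hi) hs h1 hne with he | ⟨d, hd, hdn, hu, -⟩
      · exact h2 he
      · have := S.comm_value hq (S.simple_lt hi) hs h1 hne hd hu
        rw [commutatorElement_eq_one_iff_mul_comm.2 hcomm] at this
        exact S.xg_ne_one hq hdn this.symm
    · split at h
      · exact absurd h Bool.false_ne_true
      · exact S.rootComm_of_dec (F := F) (d := 0) Nat.cast_zero
          (good := noExp) (null := noExp) ⟨fun _ h => absurd h Bool.false_ne_true,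
            fun _ h => absurd h Bool.false_ne_true⟩ (S.simple_lt hi) h Δ τ e c X Y 1 1 hX hY
  · intro q hq' r hr ih s hs hne hcomm X Y hX hY
    obtain ⟨n, hn⟩ := S.exists_refl_elt hq (F := F) hq'
    obtain ⟨N, hN⟩ := c.surj n
    have hs' := S.pi_lt q hq' s hs
    have e1 : n⁻¹ * S.xg (S.pi q r) 1 * n = S.xg r 1 := by
      rw [← hn r hr]; group
    have e2 : n⁻¹ * S.xg s 1 * n = S.xg (S.pi q s) 1 := by
      have := hn _ hs'
      rw [S.pi_pi q hq' s hs] at this
      rw [← this]; group
    have h := ih (S.pi q s) hs' (fun e' => hne (by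
        have := congrArg (S.pi q) e'
        rwa [S.pi_pi q hq' s hs, S.pi_neg q hq' r hr] at this))
      (by
        rw [← e1, ← e2, show n⁻¹ * S.xg (S.pi q r) 1 * n * (n⁻¹ * S.xg s 1 * n) =
          n⁻¹ * (S.xg (S.pi q r) 1 * S.xg s 1) * n by group, hcomm]
        group)
      (N⁻¹ * X * N) (N⁻¹ * Y * N) (by rw [map_mul, map_mul, map_inv, hN, hX, e1])
      (by rw [map_mul, map_mul, map_inv, hN, hY, e2])
    calc X * Y = N * (N⁻¹ * X * N * (N⁻¹ * Y * N)) * N⁻¹ := by group
      _ = N * (N⁻¹ * Y * N * (N⁻¹ * X * N)) * N⁻¹ := by rw [h]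
      _ = Y * X := by group

include S in
/-- **No double cover over the field with two elements.** -/
theorem not_mem_commutator_two (hsh : shapeChk D = true) (hcb : commBaseChk D = true)
    (hdb : decBaseChk D = true) :
    e ∉ ⁅(Sys.posG (D := D) F).comap τ, (Sys.posG (D := D) F).comap τ⁆ := by
  classical
  haveI : Fact (Nat.Prime 2) := ⟨Nat.prime_two⟩
  choose L hL using c.surj
  set X : ℕ → Δ := fun r => L (S.xg r 1) with hXdef
  have hX : ∀ r, τ (X r) = S.xg r 1 := fun r => hL _
  set val : ℕ → ℕ → Δ := fun a b => ⁅X a, X b⁆ with hval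
  have hcc : ∀ r < D.nroots, ∀ s < D.nroots, s ≠ D.neg r →
      S.xg r (1 : F) * S.xg s 1 = S.xg s 1 * S.xg r 1 →
      ∀ A B, τ A = S.xg r 1 → τ B = S.xg s 1 → A * B = B * A := S.comm_two hq c hsh hcb
  have hproj : ∀ s a b, S.IsDec F s a b → τ (val a b) = S.xg s 1 := fun s a b h => by
    rw [map_commutatorElement, hX, hX, h.2.2.2.2]
  have hsq_ker : ∀ r A, τ A = S.xg r 1 → A * A ∈ τ.ker := fun r A hA => by
    rw [MonoidHom.mem_ker, map_mul, hA, ← S.xg_add, CharTwo.add_self_eq_zero, S.xg_zero]
  -- squares of values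
  have hsq : ∀ s < D.nroots, ∀ a b, S.IsDec F s a b → val a b * val a b = 1 := by
    refine S.descend ?_ ?_
    · intro i hi a b h
      obtain ⟨hp, hpar⟩ := S.decPair_of_isDec hq hsh (S.simple_lt hi) h
      simp only [decBaseChk, List.all_eq_true, List.mem_range, Bool.and_eq_true] at hdb
      have hmem : (a, b) ∈ ((List.range D.nroots).filterMap fun a =>
          (partner D (D.simple i) a).map fun b => (a, b)).filter fun x => decPair D (D.simple i) x.1 x.2 := by
        simp only [List.mem_filter, List.mem_filterMap, List.mem_range]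
        exact ⟨⟨a, h.1, by simp [hpar]⟩, hp⟩
      have he := (hdb i hi).1.2 (a, b) hmem
      have he' := he
      simp only [emptyPair, Bool.and_eq_true, decide_eq_true_eq] at he'
      have hcv : X a * val a b = val a b * X a :=
        hcc a h.1 _ (S.simple_lt hi) he'.1.2 (S.comm_emptyPair hq h.1 (S.simple_lt hi) he 1 1)
          _ _ (hX a) (hproj _ a b h)
      calc val a b * val a b = X a * ⁅X a, X b⁆ * (X a)⁻¹ * ⁅X a, X b⁆ := by
            show _ = X a * val a b * (X a)⁻¹ * val a b
            rw [hcv, mul_inv_cancel_right]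
        _ = ⁅X a * X a, X b⁆ := by simp only [commutatorElement_def]; group
        _ = ⁅(1 : Δ), X b⁆ := c.comm_eq (by rw [MonoidHom.mem_ker.1 (hsq_ker a _ (hX a)), map_one]) rfl
        _ = 1 := by simp [commutatorElement_def]
    · intro q hq' r hr ih a b h
      obtain ⟨n, hn⟩ := S.exists_refl_elt hq (F := F) hq'
      obtain ⟨N, hN⟩ := c.surj n
      have h' := S.isDec_pi hq hq' (S.pi_lt q hq' r hr) h
      rw [S.pi_pi q hq' r hr] at h'
      have e1 : ∀ x, x < D.nroots → τ (N * X (S.pi q x) * N⁻¹) = τ (X x) := fun x hx => by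
        rw [map_mul, map_mul, map_inv, hN, hX, hX, hn _ (S.pi_lt q hq' x hx), S.pi_pi q hq' x hx]
      have e2 : val a b = N * val (S.pi q a) (S.pi q b) * N⁻¹ := by
        show ⁅X a, X b⁆ = N * ⁅X (S.pi q a), X (S.pi q b)⁆ * N⁻¹
        rw [c.comm_eq (e1 a h.1).symm (e1 b h.2.1).symm]
        simp only [commutatorElement_def]; group
      rw [e2, show N * val (S.pi q a) (S.pi q b) * N⁻¹ * (N * val (S.pi q a) (S.pi q b) * N⁻¹) =
        N * (val (S.pi q a) (S.pi q b) * val (S.pi q a) (S.pi q b)) * N⁻¹ by group, ih _ _ h']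
      group
  have hswap : ∀ s < D.nroots, ∀ a b, S.IsDec F s a b → val b a = val a b := fun s hs a b h => by
    rw [hval]
    show ⁅X b, X a⁆ = ⁅X a, X b⁆
    rw [← commutatorElement_inv]
    exact inv_eq_of_mul_eq_one_right (hsq s hs a b h)
  have hdswap : ∀ s < D.nroots, ∀ a b, S.IsDec F s a b → S.IsDec F s b a := fun s hs a b h => by
    obtain ⟨ha, hb, h1, h2, h3⟩ := h
    refine ⟨hb, ha, h1.symm, fun e' => h2 (by rw [e', S.neg_neg hb]), ?_⟩
    rw [← commutatorElement_inv, h3, S.xg_inv_one hq]
  have hstep : ∀ s < D.nroots, ∀ a b c' d, hwChk D s a b c' d = true → val a b = val c' d := by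
    intro s hs a b c' d h
    simp only [hwChk] at h
    split at h
    · exact absurd h Bool.false_ne_true
    rename_i e' he'
    simp only [Bool.and_eq_true] at h
    obtain ⟨⟨⟨⟨⟨⟨h1, h2⟩, h3⟩, h4⟩, h5⟩, h6⟩, h7⟩ := h
    have d1 := S.isDec_of_decPair hq hsh (F := F) h1
    have d2 := S.isDec_of_decPair hq hsh (F := F) h2
    have d3 := S.isDec_of_decPair hq hsh (F := F) h3
    have d4 := S.isDec_of_decPair hq hsh (F := F) h4
    have hne : ∀ {x y}, emptyPair D x y = true → y ≠ D.neg x := fun hxy => by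
      simp only [emptyPair, Bool.and_eq_true, decide_eq_true_eq] at hxy
      exact hxy.1.2
    set A := X c'
    set B := X e'
    set C := X b
    set P := ⁅A, B⁆
    set Q := ⁅B, C⁆
    have hP : τ P = S.xg a 1 := hproj a c' e' d1
    have hQ : τ Q = S.xg d 1 := hproj d e' b d2
    have hAC : A * C = C * A :=
      hcc c' d1.1 b d2.2.1 (hne h5) (S.comm_emptyPair hq d1.1 d2.2.1 h5 1 1) _ _ (hX _) (hX _)
    have hPQ : P * Q = Q * P :=
      hcc a d3.1 d d4.2.1 (hne h6) (S.comm_emptyPair hq d3.1 d4.2.1 h6 1 1) _ _ hP hQ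
    have hQ2 : Q⁻¹ = Q := inv_eq_of_mul_eq_one_right (hsq d d4.2.1 _ _ d2)
    have hT : τ ⁅A, Q⁆ = S.xg s 1 := by rw [map_commutatorElement, hX, hQ, d4.2.2.2.2]
    have hQT : Q * ⁅A, Q⁆ = ⁅A, Q⁆ * Q :=
      hcc d d4.2.1 s hs (hne h7) (S.comm_emptyPair hq d4.2.1 hs h7 1 1) _ _ hQ hT
    have e1 : ⁅C, P⁆ = ⁅A, Q⁆ := by
      have k1 : C * A * C⁻¹ = A := by rw [← hAC, mul_inv_cancel_right]
      have k2 : C * B * C⁻¹ = Q⁻¹ * B := by simp only [Q, commutatorElement_def]; group
      calc ⁅C, P⁆ = ⁅C * A * C⁻¹, C * B * C⁻¹⁆ * P⁻¹ := by simp only [P, commutatorElement_def]; group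
        _ = ⁅A, Q⁻¹⁆ * (Q⁻¹ * P * Q) * P⁻¹ := by
            rw [k1, k2]; simp only [P, commutatorElement_def]; group
        _ = ⁅A, Q⁆ := by rw [mul_assoc Q⁻¹, hPQ, inv_mul_cancel_left, mul_inv_cancel_right, hQ2]
    have v1 : val a b = ⁅P, C⁆ := c.comm_eq ((hX a).trans hP.symm) rfl
    have v2 : val c' d = ⁅A, Q⁆ := c.comm_eq rfl ((hX d).trans hQ.symm)
    rw [v1, v2, ← commutatorElement_inv, e1, ← v2]
    exact inv_eq_of_mul_eq_one_right (hsq s hs _ _ d4)
  -- consistency
  have hcons : ∀ s < D.nroots, ∀ a b c' d, S.IsDec F s a b → S.IsDec F s c' d →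
      val a b = val c' d := by
    refine S.descend ?_ ?_
    · intro i hi a b c' d h h'
      obtain ⟨hp, hpar⟩ := S.decPair_of_isDec hq hsh (S.simple_lt hi) h
      obtain ⟨hp', hpar'⟩ := S.decPair_of_isDec hq hsh (S.simple_lt hi) h'
      simp only [decBaseChk, List.all_eq_true, List.mem_range, Bool.and_eq_true, Bool.or_eq_true,
        decide_eq_true_eq] at hdb
      have hmem : ∀ a b, S.IsDec F (D.simple i) a b → decPair D (D.simple i) a b = true →
          partner D (D.simple i) a = some b →
          (a, b) ∈ ((List.range D.nroots).filterMap fun a =>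
          (partner D (D.simple i) a).map fun b => (a, b)).filter fun x => decPair D (D.simple i) x.1 x.2 := by
        intro a b h hp hpar
        simp only [List.mem_filter, List.mem_filterMap, List.mem_range]
        exact ⟨⟨a, h.1, by simp [hpar]⟩, hp⟩
      obtain ⟨x, l, hxl⟩ := List.exists_cons_of_ne_nil
        (List.ne_nil_of_mem (hmem a b h hp hpar))
      have hall := (hdb i hi).2 x (by rw [hxl]; simp)
      have hx : x ∈ _ :: _ := List.mem_cons_self (a := x) (l := l)
      rw [← hxl] at hx
      have hxd := S.isDec_of_decPair hq hsh (F := F) (List.mem_filter.1 hx).2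
      have hi' := S.simple_lt hi
      have key : ∀ c' d, S.IsDec F (D.simple i) c' d → decPair D (D.simple i) c' d = true →
          partner D (D.simple i) c' = some d → val x.1 x.2 = val c' d := by
        intro c' d h' hp' hpar'
        rcases hall (c', d) (hmem c' d h' hp' hpar') with ((((hh | hh) | hh) | hh) | hh) | hh
        · rw [← hh]
        · obtain ⟨h1, h2⟩ := Prod.mk.injEq .. ▸ hh
          rw [h1, h2]
          exact (hswap _ hi' _ _ hxd).symm
        · exact hstep _ hi' _ _ _ _ hh
        · rw [← hswap _ hi' _ _ hxd]; exact hstep _ hi' _ _ _ _ hh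
        · rw [← hswap _ hi' c' d h']; exact hstep _ hi' _ _ _ _ hh
        · rw [← hswap _ hi' _ _ hxd, ← hswap _ hi' c' d h']; exact hstep _ hi' _ _ _ _ hh
      rw [← key a b h hp hpar, key c' d h' hp' hpar']
    · intro q hq' r hr ih a b c' d h h'
      obtain ⟨n, hn⟩ := S.exists_refl_elt hq (F := F) hq'
      obtain ⟨N, hN⟩ := c.surj n
      have hk := S.isDec_pi hq hq' (S.pi_lt q hq' r hr) h
      have hk' := S.isDec_pi hq hq' (S.pi_lt q hq' r hr) h'
      rw [S.pi_pi q hq' r hr] at hk hk'
      have e1 : ∀ x, x < D.nroots → τ (N * X (S.pi q x) * N⁻¹) = τ (X x) := fun x hx => by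
        rw [map_mul, map_mul, map_inv, hN, hX, hX, hn _ (S.pi_lt q hq' x hx), S.pi_pi q hq' x hx]
      have e2 : ∀ a b, a < D.nroots → b < D.nroots →
          val a b = N * val (S.pi q a) (S.pi q b) * N⁻¹ := fun a b ha hb => by
        show ⁅X a, X b⁆ = N * ⁅X (S.pi q a), X (S.pi q b)⁆ * N⁻¹
        rw [c.comm_eq (e1 a ha).symm (e1 b hb).symm]
        simp only [commutatorElement_def]; group
      rw [e2 a b h.1 h.2.1, e2 c' d h'.1 h'.2.1, ih _ _ _ _ hk hk']
  -- existence
  have hexist : ∀ s < D.nroots, ∃ a b, S.IsDec F s a b := by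
    refine S.descend ?_ ?_
    · intro i hi
      simp only [decBaseChk, List.all_eq_true, List.mem_range, Bool.and_eq_true] at hdb
      obtain ⟨⟨hne, -⟩, -⟩ := hdb i hi
      simp only [Bool.not_eq_true', List.isEmpty_eq_false_iff] at hne
      obtain ⟨⟨a, b⟩, hm⟩ := List.exists_mem_of_ne_nil _ hne
      exact ⟨a, b, S.isDec_of_decPair hq hsh (List.mem_filter.1 hm).2⟩
    · rintro q hq' r hr ⟨a, b, h⟩
      exact ⟨_, _, S.isDec_pi hq hq' hr h⟩
  choose da db hdab using fun s (hs : s < D.nroots) => hexist s hs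
  let lam : ℕ → F → Δ := fun r t =>
    if t = 0 then 1 else if h : r < D.nroots then val (da r h) (db r h) else 1
  have hlam1 : ∀ r, ∀ hr : r < D.nroots, lam r 1 = val (da r hr) (db r hr) := fun r hr => by
    simp [lam, hr]
  have hlam0 : ∀ r, lam r 0 = 1 := fun r => by simp [lam]
  let Λ : S.Section τ :=
    { lam := lam
      proj := fun r hr _ t => by
        rcases elt_two hq t with rfl | rfl
        · rw [hlam0, map_one, S.xg_zero]
        · rw [hlam1 r hr]; exact hproj _ _ _ (hdab r hr)
      add := fun r hr _ t v => by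
        rcases elt_two hq t with rfl | rfl
        · rw [zero_add, hlam0, one_mul]
        · rcases elt_two hq v with rfl | rfl
          · rw [add_zero, hlam0, mul_one]
          · rw [CharTwo.add_self_eq_zero, hlam0, hlam1 r hr, hsq r hr _ _ (hdab r hr)] }
  refine Λ.not_mem_commutator c fun r s h1 h2 h3 t v => ?_
  have hr : r < D.nroots := h2.trans h3
  rcases elt_two hq t with rfl | rfl
  · rw [Λ.lam_zero hr h1]; simp [commutatorElement_def]
  rcases elt_two hq v with rfl | rfl
  · rw [Λ.lam_zero h3 (by omega)]; simp [commutatorElement_def]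
  have hne : s ≠ D.neg r := S.pos_ne_neg hr h1 (by omega)
  have himg : ∀ x, ∀ hx : x < D.nroots, τ (lam x 1) = τ (X x) := fun x hx => by
    rw [hlam1 x hx, hproj _ _ _ (hdab x hx), hX]
  rcases shape_of_chk hq hsh hr h3 (by omega) hne with he | ⟨d, hd, hdn, hu, -⟩
  · rw [commutatorElement_eq_one_iff_mul_comm.2 (hcc r hr s h3 hne
      (S.comm_empty hq hr h3 (by omega) hne he 1 1) (Λ.lam r 1) (Λ.lam s 1)
      ((himg r hr).trans (hX r)) ((himg s h3).trans (hX s)))]
    exact one_mem _
  · have hd' : S.IsDec F d.1 r s := ⟨hr, h3, by omega, hne, S.comm_value hq hr h3 (by omega) hne hd hu⟩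
    have e1 : ⁅Λ.lam r 1, Λ.lam s 1⁆ = lam d.1 1 := by
      rw [hlam1 _ hdn, c.comm_eq (himg r hr) (himg s h3)]
      exact hcons _ hdn _ _ _ _ hd' (hdab _ hdn)
    rw [e1]
    refine Λ.lam_mem ?_ hdn 1
    have := S.commWord_gt (F := F) hr h3 h1 (by omega) (t := 1) (v := 1)
      (p := (d.1, (d.2.1 : F) * (-1) ^ d.2.2.1 * 1 ^ d.2.2.2))
      (by simp [ChevalleyDatum.commWord, hd])
    exact this.2.1

end cover

include S in
theorem noPCover_two (hsh : shapeChk D = true) (hcb : commBaseChk D = true)
    (hdb : decBaseChk D = true) : NoPCover D F 2 := by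
  intro Δ _ _ τ e c he
  haveI : Fact (Nat.Prime 2) := ⟨Nat.prime_two⟩
  have hP : IsPGroup 2 (Sys.posG (D := D) F) :=
    (S.isPGroup_pos (F := F) 2).comap_of_injective _ Subtype.val_injective
  exact S.not_mem_commutator_two hq c hsh hcb hdb
    (c.mem_commutator he (hP.toSylow (S.not_dvd_index_pos (F := F) 2)))

end Sys

end CfsgLib.Chev
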