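import Cfsg.Agent.Chev.Cover.Cert

/-!
# E₆ inside E₇ and E₇ inside E₈, and the centres of the universal groups
-/

set_option autoImplicit false
set_option maxRecDepth 100000

namespace CfsgLib.Chev

open Cfsg.Lie Matrix

universe u

/-- The image of a root under a root table. -/
def subE (L : List ℕ) (r : ℕ) : ℕ := L.getD r 0

/-- The roots in the image of a root table, as a list of Booleans. -/
def subMark (n : ℕ) (L : List ℕ) : List Bool := (List.range n).map fun k => decide (k ∈ L)

/-- The chain table of `D` is the part of the chain table of `D'` on the image of `L`. -/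
def subOK (D D' : ChevalleyDatum) (L : List ℕ) : Bool :=
  decide (D.rank + 1 = D'.rank) && decide (L.length = D.nroots) &&
    (L.all fun k => decide (k < D'.nroots)) && decide L.Nodup &&
    ((List.range D.nroots).all fun r => decide (D'.neg (subE L r) = subE L (D.neg r))) &&
    ((List.range D.rank).all fun i => decide (subE L (D.simple i) = D'.simple i)) &&
    ((List.range D.nroots).all fun r =>
      decide (((D'.chain.getD (subE L r) #[]).toList.filter fun e =>
          (subMark D'.nroots L).getD e.1 false).map (fun e => (e.1, e.2.toList)) =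
        (D.chain.getD r #[]).toList.map fun e =>
          (subE L e.1, e.2.toList.map fun p => (subE L p.1, p.2)))) &&
    ((List.range D.nroots).all fun r =>
      (D.chain.getD r #[]).toList.all fun e => decide (e.1 < D.nroots)) &&
    ((List.range D.rank).all fun j => decide (D'.cartan j (D'.simple D.rank) =
      if j + 1 = D.rank then -1 else 0))

section

variable {D D' : ChevalleyDatum} {L : List ℕ}

theorem subOK_spec (h : subOK D D' L = true) :
    D.rank + 1 = D'.rank ∧ (∀ r < D.nroots, subE L r < D'.nroots) ∧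
    (∀ r < D.nroots, ∀ s < D.nroots, subE L r = subE L s → r = s) ∧
    (∀ r < D.nroots, D'.neg (subE L r) = subE L (D.neg r)) ∧
    (∀ i < D.rank, subE L (D.simple i) = D'.simple i) ∧
    (∀ r < D.nroots, ∀ s < D.nroots,
      D'.chainEntry (subE L r) (subE L s) =
        (D.chainEntry r s).map fun p => (subE L p.1, p.2)) ∧
    ∀ j < D.rank, D'.cartan j (D'.simple D.rank) = if j + 1 = D.rank then -1 else 0 := by
  simp only [subOK, Bool.and_eq_true, decide_eq_true_eq, List.all_eq_true, List.mem_range] at h
  obtain ⟨⟨⟨⟨⟨⟨⟨⟨h1, h2⟩, h3⟩, h4⟩, h5⟩, h6⟩, h7⟩, h8⟩, h9⟩ := h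
  have hget : ∀ r (hr : r < D.nroots), subE L r = L[r]'(h2 ▸ hr) := fun r hr => by
    simp [subE, h2, hr]
  have hmem : ∀ r, r < D.nroots → subE L r ∈ L := fun r hr => by
    rw [hget r hr]; exact List.getElem_mem _
  have hlt : ∀ r < D.nroots, subE L r < D'.nroots := fun r hr => h3 _ (hmem r hr)
  have hinj : ∀ r < D.nroots, ∀ s < D.nroots, subE L r = subE L s → r = s := fun r hr s hs e => by
    rw [hget r hr, hget s hs] at e
    exact (List.Nodup.getElem_inj_iff h4).1 e
  refine ⟨h1, hlt, hinj, h5, h6, fun r hr s hs => ?_, h9⟩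
  set p : ℕ × Array (ℕ × ℤ) → Bool := fun e => (subMark D'.nroots L).getD e.1 false with hp
  have hmark : (subMark D'.nroots L).getD (subE L s) false = true := by
    simp [subMark, hlt s hs, hmem s hs]
  have e1 : D'.chainEntry (subE L r) (subE L s) =
      ((((D'.chain.getD (subE L r) #[]).toList.filter p).map fun e => (e.1, e.2.toList)).find?
        fun e => e.1 = subE L s).elim [] (fun e => e.2) := by
    have : ((D'.chain.getD (subE L r) #[]).toList.filter p).find? (fun e => e.1 = subE L s) =
        (D'.chain.getD (subE L r) #[]).toList.find? (fun e => e.1 = subE L s) := by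
      rw [List.find?_filter]
      congr 1
      funext e
      by_cases he : e.1 = subE L s
      · simp only [hp, he, hmark]; simp
      · simp [he]
    rw [ChevalleyDatum.chainEntry, List.find?_map]
    show _ = (Option.map _ (List.find? (fun e : ℕ × Array (ℕ × ℤ) => decide (e.1 = subE L s)) _)).elim _ _
    rw [this]
    cases (D'.chain.getD (subE L r) #[]).toList.find? (fun e => e.1 = subE L s) <;> rfl
  rw [e1, h7 r hr, ChevalleyDatum.chainEntry, List.find?_map]
  have hfind : (D.chain.getD r #[]).toList.find? ((fun e : ℕ × List (ℕ × ℤ) =>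
      decide (e.1 = subE L s)) ∘ fun e : ℕ × Array (ℕ × ℤ) =>
        (subE L e.1, e.2.toList.map fun p => (subE L p.1, p.2))) =
      (D.chain.getD r #[]).toList.find? fun e => e.1 = s := by
    have hl : ∀ e ∈ (D.chain.getD r #[]).toList, e.1 < D.nroots := h8 r hr
    generalize (D.chain.getD r #[]).toList = l at hl
    induction l with
    | nil => rfl
    | cons a l ih =>
      have ha := hl a (List.mem_cons_self ..)
      have hh : decide (subE L a.1 = subE L s) = decide (a.1 = s) :=
        decide_eq_decide.2 ⟨hinj _ ha s hs, fun e => by rw [e]⟩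
      have ih' := ih fun e he => hl e (List.mem_cons_of_mem _ he)
      rw [List.find?_cons, List.find?_cons, ih']
      simp only [Function.comp_apply, hh]
  rw [hfind]
  cases (D.chain.getD r #[]).toList.find? (fun e => e.1 = s) <;> rfl

theorem subOK_commTerms (S : Sys.{u} D) (h : subOK D D' L = true) {r s : ℕ} (hr : r < D.nroots)
    (hs : s < D.nroots) :
    D'.commTerms (subE L r) (subE L s) = (D.commTerms r s).map fun c => (subE L c.1, c.2) := by
  obtain ⟨-, -, -, -, -, he, -⟩ := subOK_spec h
  have hR : ∀ a < D.nroots, ∀ b < D.nroots, ∀ i,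
      D'.chainRoot (subE L a) (subE L b) i = (D.chainRoot a b i).map (subE L) := by
    intro a ha b hb i
    simp [ChevalleyDatum.chainRoot, he a ha b hb, List.getElem?_map, Option.map_map,
      Function.comp_def]
  have hM : ∀ a < D.nroots, ∀ b < D.nroots, ∀ i,
      D'.chainM (subE L a) (subE L b) i = D.chainM a b i := by
    intro a ha b hb i
    simp [ChevalleyDatum.chainM, he a ha b hb, List.getElem?_map, Option.map_map,
      Function.comp_def]
  have hB : ∀ a < D.nroots, ∀ b < D.nroots, ∀ i, 1 ≤ i → ∀ v, D.chainRoot a b i = some v →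
      v < D.nroots := fun a ha b hb i hi v e => (S.vec_chainRoot ha hb hi e).1
  have hnest : ∀ a < D.nroots, ∀ b < D.nroots, ∀ c < D.nroots,
      ((D'.chainRoot (subE L a) (subE L b) 3).bind fun k => D'.chainRoot k (subE L c) 1) =
        ((D.chainRoot a b 3).bind fun k => D.chainRoot k c 1).map (subE L) := by
    intro a ha b hb c hc
    rw [hR a ha b hb]
    cases hv : D.chainRoot a b 3 with
    | none => rfl
    | some v => simpa using hR v (hB a ha b hb 3 (by omega) v hv) c hc 1
  have hcoef : ∀ c < D.nroots, ∀ f : ℤ → ℤ,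
      (((D'.chainRoot (subE L r) (subE L s) 1).map fun k => f (D'.chainM k (subE L c) 2)).getD 0) =
        (((D.chainRoot r s 1).map fun k => f (D.chainM k c 2)).getD 0) := by
    intro c hc f
    rw [hR r hr s hs]
    cases hv : D.chainRoot r s 1 with
    | none => rfl
    | some v => simp [hM v (hB r hr s hs 1 le_rfl v hv) c hc]
  simp only [ChevalleyDatum.commTerms]
  rw [hnest r hr s hs s hs, hnest s hs r hr r hr, hcoef r hr fun z => z / 3,
    hcoef s hs fun z => -2 * z / 3, hR r hr s hs, hR r hr s hs, hR r hr s hs, hR s hs r hr,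
    hR s hs r hr, hM r hr s hs, hM r hr s hs, hM r hr s hs, hM s hs r hr, hM s hs r hr,
    List.map_filterMap]
  simp only [List.filterMap_cons, List.filterMap_nil, Option.map_map, Function.comp_def]

/-- The homomorphism of the presented group of `D` into the group of `D'`. -/
theorem exists_sub_hom (S : Sys.{u} D) (S' : Sys.{u} D') (h : subOK D D' L = true)
    (F : Type u) [Field F] :
    ∃ ψ : D.SteinbergGroup F →* GL D'.Idx F,
      ∀ i < D.rank, ∀ t : Fˣ, ψ ((S.stLift F).h (D.simple i) (t : F)) =
        S'.dg (hz D' (D'.simple i) t) := by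
  obtain ⟨hrank, hlt, hinj, hneg, hsimp, -, -⟩ := subOK_spec h
  let val : Fin D.nroots × F → GL D'.Idx F := fun p => S'.xU (subE L p.1) p.2
  have hX : ∀ r < D.nroots, ∀ t : F, FreeGroup.lift val (D.stX r t) = S'.xU (subE L r) t := by
    intro r hr t; simp [ChevalleyDatum.stX, hr, val]
  have hW : ∀ l : List (ℕ × F), (∀ p ∈ l, p.1 < D.nroots) →
      FreeGroup.lift val (D.stWord l) = S'.wU (l.map fun p => (subE L p.1, p.2)) := by
    intro l hl
    rw [ChevalleyDatum.stWord, map_list_prod, List.map_map, Sys.wU, List.map_map]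
    congr 1
    exact List.map_congr_left fun p hp => hX p.1 (hl p hp) p.2
  have hH : ∀ r < D.nroots, ∀ t : F, FreeGroup.lift val (D.stH r t) = S'.hU (subE L r) t := by
    intro r hr t
    rw [ChevalleyDatum.stH, hW _ (fun p hp => ?_), Sys.hU]
    · simp [ChevalleyDatum.hWord, ChevalleyDatum.nWord, hneg r hr]
    · simp only [ChevalleyDatum.hWord, ChevalleyDatum.nWord, List.mem_append, List.mem_cons,
        List.not_mem_nil, or_false] at hp
      rcases hp with (rfl | rfl | rfl) | (rfl | rfl | rfl) <;>
        first | exact hr | exact S.neg_lt hr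
  have hrel : ∀ g ∈ D.steinbergRels F, FreeGroup.lift val g = 1 := by
    intro g hg
    rcases hg with (⟨r, t, v, hr, rfl⟩ | ⟨r, s, t, v, hr, hs, h1, h2, rfl⟩) |
      ⟨r, t, v, hr, ht, hv, rfl⟩
    · rw [map_mul, map_mul, map_inv, hX r hr, hX r hr, hX r hr, S'.xU_add, mul_inv_cancel]
    · have hb : ∀ p ∈ D.commWord F r s t v, p.1 < D.nroots := by
        intro p hp
        simp only [ChevalleyDatum.commWord, List.mem_map] at hp
        obtain ⟨c, hc, rfl⟩ := hp
        exact (S.commTerms_vec hr hs hc).1
      have hc' : D'.commWord F (subE L r) (subE L s) t v =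
          (D.commWord F r s t v).map fun p => (subE L p.1, p.2) := by
        simp [ChevalleyDatum.commWord, subOK_commTerms S h hr hs, Function.comp_def]
      rw [map_mul, map_mul, map_mul, map_mul, map_inv, map_inv, map_inv, hX r hr, hX s hs,
        hW _ hb, ← hc',
        mul_assoc ((S'.xU (subE L s) v)⁻¹ * (S'.xU (subE L r) t)⁻¹) (S'.xU (subE L s) v)
          (S'.xU (subE L r) t),
        S'.comm_wU (hlt r hr) (hlt s hs) (fun e => h1 (hinj s hs r hr e))
          (fun e => h2 (hinj s hs _ (S.neg_lt hr) (by rw [e, hneg r hr])))]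
      group
    · rw [map_mul, map_mul, map_inv, hH r hr, hH r hr, hH r hr, mul_inv_eq_one]
      exact (S'.hU_mul (hlt r hr) (Units.mk0 t ht) (Units.mk0 v hv)).symm
  refine ⟨PresentedGroup.toGroup hrel, fun i hi t => ?_⟩
  rw [S.stLift_h]
  show FreeGroup.lift val (D.stH (D.simple i) (t : F)) = _
  rw [hH _ (S.simple_lt hi), hsimp i hi, S'.hU_eq_dg (S'.simple_lt (by omega))]

/-- The kernel parameters act faithfully inside the bigger group: the centre has order `gcd`. -/
theorem card_center_of_sub (S : Sys.{u} D) (S' : Sys.{u} D') (hg : GenOK D)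
    (h : subOK D D' L = true) (C : TorusCert D) (k : Fin D.rank) (hk : (k : ℕ) + 1 = D.rank)
    (hd : ∀ i, i ≠ k → C.d i = 1) (a b : ℤ) (hab : a * C.V k k + b * (C.d k : ℤ) = 1)
    (F : Type u) [Field F] [Finite F] :
    Nat.card (Subgroup.center (D.SteinbergGroup F)) = Nat.gcd (C.d k) (Nat.card F - 1) := by
  obtain ⟨hrank, -, -, -, hsimp, -, hlast⟩ := subOK_spec h
  rw [← (S.stLift F).θ_ker_eq_center hg, Lift.θ_ker]
  obtain ⟨φ, hφ1, hφ⟩ := (S.stLift F).ker_subset_param hg S.stLift_R3
  set M := Matrix.of fun (i j : Fin D.rank) => D.cartan (j : ℕ) (D.simple (i : ℕ)) with hM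
  set K := (mact M : (Fin D.rank → Fˣ) →* _).ker with hK
  have hmap : (S.stLift F).π.ker = K.map φ := by
    ext z
    rw [hφ z]
    exact ⟨fun ⟨c, hc, e⟩ => ⟨c, hc, e⟩, fun ⟨c, hc, e⟩ => ⟨c, hc, e⟩⟩
  obtain ⟨ψ, hψ⟩ := exists_sub_hom S S' h F
  have hinj : ∀ c ∈ K, φ c = 1 → c = 1 := by
    intro c hc hφc
    -- the last coordinate is visible in the bigger group
    have key : c k = 1 := by
      let f' : Fin D.rank → (Fˣ →* (ℕ → Fˣ)) := fun j =>
        MonoidHom.mk' (hz D' (D'.simple j)) (hz_mul D' _)
      let g : (Fin D.rank → Fˣ) →* (ℕ → Fˣ) :=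
        MonoidHom.mk' (fun c => ∏ j, f' j (c j))
          (fun c c' => by simp [Finset.prod_mul_distrib])
      have hsingle : ∀ (j : Fin D.rank) (t : Fˣ), g (Pi.mulSingle j t) = f' j t := by
        intro j t
        show ∏ i, f' i ((Pi.mulSingle j t : Fin D.rank → Fˣ) i) = _
        rw [Finset.prod_eq_single_of_mem j (Finset.mem_univ _)]
        · rw [Pi.mulSingle_eq_same]
        · intro i _ hi; rw [Pi.mulSingle_eq_of_ne hi, map_one]
      have e : ψ.comp φ = S'.dgHom.comp g := by
        refine MonoidHom.pi_ext fun j t => ?_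
        rw [MonoidHom.comp_apply, MonoidHom.comp_apply, hφ1, hψ j j.2, hsingle]
        rfl
      have e1 : S'.dg (g c) = S'.dg (1 : ℕ → Fˣ) := by
        rw [← S'.dgHom_apply, ← MonoidHom.comp_apply, ← e, MonoidHom.comp_apply, hφc, map_one]
        exact (map_one S'.dgHom).symm
      have e2 := S'.dg_inj e1 (i := D.rank) (by omega)
      have e3 : g c D.rank = (c k) ^ (-1 : ℤ) := by
        show (∏ j, f' j (c j)) D.rank = _
        rw [Finset.prod_apply, Finset.prod_eq_single_of_mem k (Finset.mem_univ _)]
        · show c k ^ cr D' (D'.simple k) D.rank = _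
          rw [S'.cr_simple (by omega), hlast k k.2, if_pos hk]
        · intro j _ hj
          show c j ^ cr D' (D'.simple j) D.rank = 1
          rw [S'.cr_simple (by omega), hlast j j.2,
            if_neg (fun e => hj (Fin.ext (by omega))), _root_.zpow_zero]
      rw [e3, Pi.one_apply, _root_.zpow_neg, _root_.zpow_one, inv_eq_one] at e2
      exact e2
    set w := mact C.V' c with hw
    have hcw : c = mact C.V w := by
      rw [hw, ← MonoidHom.comp_apply, ← mact_mul, C.hV, mact_one, MonoidHom.id_apply]
    have h2 : mact (Matrix.diagonal fun i => (C.d i : ℤ)) w = 1 := by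
      rw [← C.hM, mact_mul, mact_mul]
      simp only [MonoidHom.comp_apply, ← hcw]
      rw [MonoidHom.mem_ker.1 hc, map_one]
    have hw1 : ∀ i, i ≠ k → w i = 1 := fun i hi => by
      have := congrFun h2 i
      rwa [mact_diag_apply, hd i hi, pow_one] at this
    have hwk : w k ^ C.d k = 1 := by
      have := congrFun h2 k
      rwa [mact_diag_apply] at this
    have hV : w k ^ C.V k k = 1 := by
      rw [← key, hcw, mact_apply, Finset.prod_eq_single_of_mem k (Finset.mem_univ _)]
      intro i _ hi; rw [hw1 i hi, _root_.one_zpow]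
    have hwk1 : w k = 1 := by
      rw [← _root_.zpow_one (w k), ← hab, _root_.zpow_add, mul_comm a, mul_comm b, _root_.zpow_mul,
        _root_.zpow_mul, hV, zpow_natCast, hwk, _root_.one_zpow, _root_.one_zpow, mul_one]
    have : w = 1 := funext fun i => by
      by_cases hi : i = k
      · rw [hi, hwk1, Pi.one_apply]
      · exact hw1 i hi
    rw [hcw, this, map_one]
  rw [hmap]
  have hcard : Nat.card (K.map φ) = Nat.card K := by
    refine (Nat.card_congr (Equiv.ofBijective (fun c : K => (⟨φ c, c, c.2, rfl⟩ : K.map φ))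
      ⟨fun x y e => ?_, fun z => ?_⟩)).symm
    · have e' : φ x = φ y := congrArg Subtype.val e
      exact Subtype.ext (inv_mul_eq_one.1 (hinj _ (mul_mem (inv_mem x.2) y.2)
        (by rw [map_mul, map_inv, e', inv_mul_cancel])))
    · obtain ⟨z, c, hc, rfl⟩ := z
      exact ⟨⟨c, hc⟩, rfl⟩
  rw [hcard]
  have hs := card_range_smith (A := Fˣ) C.d C.hU C.hV C.hM
  rw [← hM, Finset.prod_eq_single_of_mem k (Finset.mem_univ _)
    (fun i _ hi => by rw [hd i hi, Nat.gcd_one_right]), Nat.card_units] at hs
  have hi : Nat.card K * Nat.card (mact M : (Fin D.rank → Fˣ) →* _).range =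
      (Nat.card F - 1) ^ D.rank := by
    rw [hK, ← Subgroup.index_ker, Subgroup.card_mul_index, Nat.card_fun, Nat.card_units,
      Nat.card_eq_fintype_card (α := Fin _), Fintype.card_fin]
  rw [Nat.gcd_comm]
  exact Nat.eq_of_mul_eq_mul_right Nat.card_pos (hi.trans hs.symm)

end

/-- The roots of E6 inside E7. -/
def embE6 : List ℕ := [6, 10, 13, 15, 16, 19, 21, 22, 24, 25, 26, 28, 29, 30, 31, 32, 35, 37, 38, 40, 41, 42, 44, 45, 46, 47, 49, 50, 51, 52, 54, 55, 56, 58, 59, 61, 64, 66, 67, 69, 70, 71, 73, 74, 75, 76, 78, 79, 80, 81, 83, 84, 85, 87, 88, 90, 93, 94, 95, 96, 97, 99, 100, 101, 103, 104, 106, 109, 110, 112, 115, 119]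

theorem subOK_E6 : subOK chevE6 chevE7 embE6 = true := by decide +kernel

/-- The roots of E7 inside E8. -/
def embE7 : List ℕ := [13, 20, 25, 29, 32, 34, 35, 39, 42, 44, 45, 48, 50, 51, 53, 54, 55, 58, 60, 61, 63, 64, 65, 67, 68, 69, 70, 72, 73, 74, 75, 76, 77, 80, 82, 83, 85, 86, 87, 89, 90, 91, 92, 94, 95, 96, 97, 98, 100, 101, 102, 103, 104, 106, 107, 108, 109, 111, 112, 113, 115, 116, 118, 121, 123, 124, 126, 127, 128, 130, 131, 132, 133, 135, 136, 137, 138, 139, 141, 142, 143, 144, 145, 147, 148, 149, 150, 152, 153, 154, 156, 157, 159, 162, 163, 164, 165, 166, 167, 169, 170, 171, 172, 174, 175, 176, 178, 179, 181, 184, 185, 186, 188, 189, 191, 194, 195, 197, 200, 204, 205, 207, 210, 214, 219, 226]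

theorem subOK_E7 : subOK chevE7 chevE8 embE7 = true := by decide +kernel

end CfsgLib.Chev
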